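/-
Tools for the exceptional isomorphisms of small orthogonal groups: a homomorphism from a (mostly
perfect) group onto a subgroup of index at most four of an orthogonal group.
-/
import Mathlib
import Cfsg.Prelude.Def_Classical
import Cfsg.Agent.Char.Burnside
import Cfsg.Agent.Linear.Transvection
import Cfsg.Agent.Classical.OrthBasic
import Cfsg.Agent.Classical.OrthOrder

set_option autoImplicit false

namespace Cfsg.Agent.Classical.Exc

open scoped commutatorElement

universe u v w

section GroupTheory

variable {G : Type u} [Group G] {O : Type v} [Group O]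

/-- A homomorphism from a perfect group to a solvable one is trivial. -/
theorem hom_trivial {S : Type w} [Group S] [Group.IsPerfect G] [Group.IsSolvable S]
    (f : G →* S) (g : G) : f g = 1 := by
  have h1 : ∀ n, (⊤ : Subgroup G).map f ≤ derivedSeries S n := by
    intro n
    induction n with
    | zero => exact le_top
    | succ n ih =>
      calc (⊤ : Subgroup G).map f = ⁅(⊤ : Subgroup G).map f, (⊤ : Subgroup G).map f⁆ := by
            rw [← Subgroup.map_commutator, ← commutator_def, Group.IsPerfect.commutator_eq_top]
        _ ≤ _ := Subgroup.commutator_mono ih ih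
  obtain ⟨n, hn⟩ := (isSolvable_def (G := S)).1 inferInstance
  have := h1 n
  rw [hn] at this
  exact Subgroup.mem_bot.1 (this (Subgroup.mem_map_of_mem f (Subgroup.mem_top g)))

/-- In a finite group, the perfect image of index at most four is normal. -/
theorem range_normal_of_perfect [Group.IsPerfect G] [Finite O] (φ : G →* O)
    (hi : φ.range.index ≤ 4) : φ.range.Normal := by
  classical
  set H := φ.range with hH
  let X := O ⧸ H
  have : Fintype X := Fintype.ofFinite X
  let π : O →* Equiv.Perm X := MulAction.toPermHom O X
  have hsol : Group.IsSolvable (Equiv.Perm X) := by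
    refine Char.solvable_of_card_eq_pow_mul_pow 2 3 Nat.prime_two Nat.prime_three
      (Nat.card (Equiv.Perm X)) rfl ?_
    intro r hr hd
    have hd' : r ∣ 24 := by
      refine hd.trans ?_
      rw [Nat.card_perm, show (24 : ℕ) = Nat.factorial 4 by decide]
      exact Nat.factorial_dvd_factorial hi
    have h2 : r ≤ 24 := Nat.le_of_dvd (by norm_num) hd'
    interval_cases r <;> simp_all <;> norm_num at *
  have htriv := fun g => hom_trivial (π.comp φ) g
  refine ⟨fun x hx o => ?_⟩
  obtain ⟨g, rfl⟩ := hx
  have h := Equiv.ext_iff.1 (htriv g) (QuotientGroup.mk (s := H) o⁻¹)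
  simp only [MonoidHom.coe_comp, Function.comp_apply, π, MulAction.toPermHom_apply,
    MulAction.toPerm_apply, Equiv.Perm.coe_one, id_eq] at h
  rw [MulAction.Quotient.smul_mk, eq_comm, QuotientGroup.eq, smul_eq_mul] at h
  simpa [mul_assoc] using h

/-- A normal subgroup of index at most four contains the commutator subgroup. -/
theorem commutator_le_of_index [Finite O] (N : Subgroup O) [N.Normal] (hi : N.index ≤ 4) :
    commutator O ≤ N := by
  refine Subgroup.Normal.quotient_commutative_iff_commutator_le.1 ⟨⟨fun a b => ?_⟩⟩
  have h0 : N.index ≠ 0 := Subgroup.index_ne_zero_of_finite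
  have hc : Nat.card (O ⧸ N) = N.index := rfl
  by_cases h4 : N.index = 4
  · have : Fact (Nat.Prime 2) := ⟨Nat.prime_two⟩
    exact (IsPGroup.isMulCommutative_of_card_eq_prime_sq (p := 2) (by rw [hc, h4]; rfl)).is_comm.comm a b
  · interval_cases h : N.index
    all_goals
      first
        | exact absurd rfl h0
        | exact absurd rfl h4
        | (have : Subsingleton (O ⧸ N) := (Nat.card_eq_one_iff_unique.1 hc).1
           exact Subsingleton.elim _ _)
        | (have : Fact (Nat.Prime (Nat.card (O ⧸ N))) := ⟨by rw [hc]; norm_num⟩
           exact (isCyclic_of_prime_card (α := O ⧸ N) rfl).isMulCommutative.is_comm.comm a b)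

/-- A perfect image of index at most four is the commutator subgroup. -/
theorem commutator_eq_range [Group.IsPerfect G] [Finite O] (φ : G →* O)
    (hi : φ.range.index ≤ 4) : commutator O = φ.range := by
  have := range_normal_of_perfect φ hi
  refine le_antisymm (commutator_le_of_index _ hi) ?_
  rw [MonoidHom.range_eq_map, ← Group.IsPerfect.commutator_eq_top (G := G), commutator_def,
    Subgroup.map_commutator, commutator_def]
  exact Subgroup.commutator_mono le_top le_top

theorem index_le_of_card [Finite G] [Finite O] (φ : G →* O)
    (h : Nat.card O * Nat.card φ.ker ≤ 4 * Nat.card G) : φ.range.index ≤ 4 := by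
  have h1 : Nat.card φ.range * φ.range.index = Nat.card O := Subgroup.card_mul_index _
  have h2 : Nat.card φ.ker * Nat.card φ.range = Nat.card G := by
    rw [← Subgroup.index_ker, Subgroup.card_mul_index]
  rw [← h1, ← h2] at h
  have h3 : 0 < Nat.card φ.ker * Nat.card φ.range := Nat.mul_pos Finite.card_pos Finite.card_pos
  exact le_of_mul_le_mul_left (a := Nat.card φ.ker * Nat.card φ.range) (by linarith) h3

/-- The quotient of the commutator subgroup by its centre, when it is the image of `φ`. -/
theorem nonempty_commutator_mod_center (φ : G →* O) (hr : commutator O = φ.range)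
    (hZ : ∀ g : G, g ∈ Subgroup.center G ↔ ∀ x : G, φ ⁅g, x⁆ = 1) :
    Nonempty (commutator O ⧸ Subgroup.center (commutator O) ≃* G ⧸ Subgroup.center G) := by
  let ψ : G →* φ.range ⧸ Subgroup.center φ.range :=
    (QuotientGroup.mk' _).comp φ.rangeRestrict
  have hs : Function.Surjective ψ :=
    (QuotientGroup.mk'_surjective _).comp φ.rangeRestrict_surjective
  have hk : ψ.ker = Subgroup.center G := by
    ext g
    rw [MonoidHom.mem_ker, MonoidHom.coe_comp, Function.comp_apply, QuotientGroup.mk'_apply,
      QuotientGroup.eq_one_iff, hZ g, Subgroup.mem_center_iff]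
    constructor
    · intro h x
      have := congrArg Subtype.val (h (φ.rangeRestrict x))
      simp only [Subgroup.coe_mul, MonoidHom.coe_rangeRestrict] at this
      rw [map_commutatorElement, commutatorElement_eq_one_iff_mul_comm, this]
    · intro h y
      obtain ⟨x, rfl⟩ := φ.rangeRestrict_surjective y
      refine Subtype.ext ?_
      have := h x
      rw [map_commutatorElement, commutatorElement_eq_one_iff_mul_comm] at this
      simp [this]
  exact ⟨(centerQuotientEquiv (MulEquiv.subgroupCongr hr)).trans
    ((QuotientGroup.quotientKerEquivOfSurjective ψ hs).symm.trans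
      (QuotientGroup.quotientMulEquivOfEq hk))⟩

/-- Grün's lemma gives the hypothesis on the centre for perfect groups. -/
theorem center_iff_of_perfect [Group.IsPerfect G] (φ : G →* O)
    (hker : φ.ker ≤ Subgroup.center G) (g : G) :
    g ∈ Subgroup.center G ↔ ∀ x : G, φ ⁅g, x⁆ = 1 := by
  constructor
  · intro h x
    rw [commutatorElement_eq_one_iff_mul_comm.2 (Subgroup.mem_center_iff.1 h x).symm, map_one]
  · intro h
    rw [← QuotientGroup.eq_one_iff, ← Subgroup.mem_bot,
      ← Group.IsPerfect.center_quotient_center_eq_bot G, Subgroup.mem_center_iff]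
    intro y
    obtain ⟨x, rfl⟩ := QuotientGroup.mk'_surjective _ y
    have := hker (MonoidHom.mem_ker.2 (h x))
    rw [← QuotientGroup.eq_one_iff] at this
    rw [eq_comm, ← commutatorElement_eq_one_iff_mul_comm]
    exact (map_commutatorElement (QuotientGroup.mk' (Subgroup.center G)) g x).symm.trans this

/-- A subgroup normalised by a subgroup of index at most two and one element outside it is
normal. -/
theorem normal_of_index_two [Finite O] (N K : Subgroup O) (hK : K.index ≤ 2)
    (hKN : K ≤ Subgroup.normalizer (N : Set O)) {z : O}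
    (hz : z ∈ Subgroup.normalizer (N : Set O)) (hzK : z ∉ K) : N.Normal := by
  rw [← Subgroup.normalizer_eq_top_iff, ← Subgroup.index_eq_one]
  have hlt : K < Subgroup.normalizer (N : Set O) :=
    lt_of_le_of_ne hKN fun e => hzK (by rw [e]; exact hz)
  have h1 := Subgroup.index_antitone hKN
  have h2 : (Subgroup.normalizer (N : Set O)).index < K.index := Subgroup.index_strictAnti hlt
  have h3 : (Subgroup.normalizer (N : Set O)).index ≠ 0 := Subgroup.index_ne_zero_of_finite
  omega

end GroupTheory

section Action

variable {F : Type u} [Field F] {V : Type v} [AddCommGroup V] [Module F V]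
  {W : Type w} [AddCommGroup W] [Module F W] {G : Type*} [Group G]

/-- The action induced on an invariant subspace, given by an embedding and a retraction. -/
def actHom (Q : QuadraticForm F V) (inc : V →ₗ[F] W) (prj : W →ₗ[F] V)
    (hπ : ∀ v, prj (inc v) = v) (T : G →* Module.End F W)
    (hinv : ∀ g v, inc (prj (T g (inc v))) = T g (inc v))
    (hQ : ∀ g v, Q (prj (T g (inc v))) = Q v) : G →* OQ Q :=
  let f : G →* Module.End F V :=
    { toFun := fun g => prj.comp ((T g).comp inc)
      map_one' := by ext v; simp [hπ]
      map_mul' := fun g h => by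
        ext v
        simp [Module.End.mul_apply, hinv] }
  { toFun := fun g => ⟨LinearMap.GeneralLinearGroup.generalLinearEquiv F V (f.toHomUnits g), hQ g⟩
    map_one' := Subtype.ext (by simp)
    map_mul' := fun g h => Subtype.ext (by simp) }

theorem actHom_apply (Q : QuadraticForm F V) (inc : V →ₗ[F] W) (prj : W →ₗ[F] V)
    (hπ : ∀ v, prj (inc v) = v) (T : G →* Module.End F W)
    (hinv : ∀ g v, inc (prj (T g (inc v))) = T g (inc v))
    (hQ : ∀ g v, Q (prj (T g (inc v))) = Q v) (g : G) (v : V) :
    (actHom Q inc prj hπ T hinv hQ g).1 v = prj (T g (inc v)) := rfl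

theorem mem_ker_actHom (Q : QuadraticForm F V) (inc : V →ₗ[F] W) (prj : W →ₗ[F] V)
    (hπ : ∀ v, prj (inc v) = v) (T : G →* Module.End F W)
    (hinv : ∀ g v, inc (prj (T g (inc v))) = T g (inc v))
    (hQ : ∀ g v, Q (prj (T g (inc v))) = Q v) (g : G) :
    g ∈ (actHom Q inc prj hπ T hinv hQ).ker ↔ ∀ v, T g (inc v) = inc v := by
  rw [MonoidHom.mem_ker]
  constructor
  · intro h v
    have e : prj (T g (inc v)) = v := by
      have := congrArg (fun x : OQ Q => x.1 v) h
      simpa [actHom_apply] using this
    conv_rhs => rw [← e]
    rw [hinv]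
  · intro h
    refine Subtype.ext (LinearEquiv.ext fun v => ?_)
    rw [actHom_apply, h, hπ]
    rfl

end Action

/-- Two-sided multiplication by a pair of matrix representations. -/
def sandwich {F : Type u} [CommRing F] {k : Type*} [CommSemiring k] [Algebra k F] {G : Type*} [Monoid G]
    {ι : Type*} [Fintype ι] [DecidableEq ι] (A B : G →* Matrix ι ι F) :
    G →* Module.End k (Matrix ι ι F) where
  toFun g :=
    { toFun := fun X => A g * X * (B g).transpose
      map_add' := fun X Y => by rw [mul_add, add_mul]
      map_smul' := fun c X => by simp [Matrix.mul_smul, Matrix.smul_mul] }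
  map_one' := by ext X : 1; simp
  map_mul' g h := by
    ext X : 1
    simp [Matrix.transpose_mul, mul_assoc]

theorem sandwich_apply {F : Type u} [CommRing F] {k : Type*} [CommSemiring k] [Algebra k F]
    {G : Type*} [Monoid G] {ι : Type*} [Fintype ι] [DecidableEq ι] (A B : G →* Matrix ι ι F)
    (g : G) (X : Matrix ι ι F) : sandwich (k := k) A B g X = A g * X * (B g).transpose := rfl

/-- From a homomorphism to the orthogonal group to the Prelude's `POmega`. -/
theorem nonempty_POmega_of {F : Type u} [Field F] {ι : Type} [Fintype ι] [DecidableEq ι]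
    (f : (ι → F) → F) (Q : QuadraticForm F (ι → F)) (hQ : ∀ v, Q v = f v)
    {G : Type v} [Group G] (φ : G →* OQ Q) (hr : commutator (OQ Q) = φ.range)
    (hZ : ∀ g : G, g ∈ Subgroup.center G ↔ ∀ x : G, φ ⁅g, x⁆ = 1) :
    Nonempty (Cfsg.POmega F f ≃* G ⧸ Subgroup.center G) := by
  obtain ⟨e⟩ := nonempty_commutator_mod_center φ hr hZ
  exact ⟨(centerQuotientEquiv (((isometryGroupEquiv f Q hQ).subgroupMap _).trans
    (MulEquiv.subgroupCongr (map_commutator_top_of_equiv _)))).trans e⟩

end Cfsg.Agent.Classical.Exc
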