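/-
The isomorphisms for orthogonal groups in dimensions three and four with two-dimensional linear
groups.
-/
import Mathlib
import Cfsg.Prelude.Def_Classical
import Cfsg.Agent.Classical.ExcBasic
import Cfsg.Agent.Classical.OrthForms
import Cfsg.Agent.Classical.UBasic
import Cfsg.Agent.Classical.UTwo
import Cfsg.Agent.Linear.Orders
import Cfsg.Agent.Linear.Transvection

set_option autoImplicit false

namespace Cfsg.Agent.Classical.Exc

open Matrix
open scoped MatrixGroups commutatorElement

universe u v

variable {F : Type u} [Field F]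

/-- A matrix unit-coefficient representation of a group of matrices. -/
abbrev slMat (F : Type u) [Field F] (n : ℕ) :
    Matrix.SpecialLinearGroup (Fin n) F →* Matrix (Fin n) (Fin n) F :=
  Cfsg.slToMat n F

theorem card_sq_eq_one_le : Nat.card {c : F // c ^ 2 = 1} ≤ 2 := by
  have : Function.Surjective (fun i : Fin 2 =>
      (if i = 0 then ⟨1, one_pow 2⟩ else ⟨-1, by ring⟩ : {c : F // c ^ 2 = 1})) := by
    rintro ⟨c, hc⟩
    rcases sq_eq_one_iff.1 hc with rfl | rfl
    · exact ⟨0, rfl⟩
    · exact ⟨1, rfl⟩
  simpa using Nat.card_le_card_of_surjective _ this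

theorem finite_sq_eq_one : Finite {c : F // c ^ 2 = 1} := by
  have : Function.Surjective (fun i : Fin 2 =>
      (if i = 0 then ⟨1, one_pow 2⟩ else ⟨-1, by ring⟩ : {c : F // c ^ 2 = 1})) := by
    rintro ⟨c, hc⟩
    rcases sq_eq_one_iff.1 hc with rfl | rfl
    · exact ⟨0, rfl⟩
    · exact ⟨1, rfl⟩
  exact Finite.of_surjective _ this

/-- Scalar matrices in `SL₂` are central. -/
theorem scalar_center {n : ℕ} (g : Matrix.SpecialLinearGroup (Fin n) F) {c : F}
    (h : g.1 = c • 1) : g ∈ Subgroup.center (Matrix.SpecialLinearGroup (Fin n) F) := by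
  rw [Subgroup.mem_center_iff]
  intro x
  refine Subtype.ext ?_
  change x.1 * g.1 = g.1 * x.1
  rw [h, Matrix.mul_smul, Matrix.smul_mul, mul_one, one_mul]

theorem scalar_sq {g : SL(2, F)} {c : F} (h : g.1 = c • 1) : c ^ 2 = 1 := by
  have := g.2
  rw [h, Matrix.det_smul, Matrix.det_one, mul_one, Fintype.card_fin] at this
  exact this

/-- Commutation up to scalars with everything means centrality in `SL₂`. -/
theorem center_of_commute_scalar (g : SL(2, F))
    (h : ∀ x : SL(2, F), ∃ e : F, e ^ 2 = 1 ∧ (⁅g, x⁆ : SL(2, F)).1 = e • 1) :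
    g ∈ Subgroup.center SL(2, F) := by
  rw [Subgroup.mem_center_iff]
  suffices H : Subgroup.centralizer ({g} : Set SL(2, F)) = ⊤ by
    intro x
    have := Subgroup.mem_top x
    rw [← H, Subgroup.mem_centralizer_singleton_iff] at this
    exact this
  refine Linear.eq_top_of_transvection_mem _ fun i j hij c => ?_
  rw [Subgroup.mem_centralizer_singleton_iff]
  set t := Matrix.SpecialLinearGroup.transvection hij c
  obtain ⟨e, he, hc⟩ := h t
  have h1 : g * t * g⁻¹ = ⁅g, t⁆ * t := by rw [commutatorElement_def]; group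
  have h1' : g.1 * t.1 * (g⁻¹).1 = e • t.1 := by
    rw [← Matrix.SpecialLinearGroup.coe_mul, ← Matrix.SpecialLinearGroup.coe_mul, h1,
      Matrix.SpecialLinearGroup.coe_mul, hc, Matrix.smul_mul, one_mul]
  have htr : t.1.trace = 2 := by
    fin_cases i <;> fin_cases j <;> simp at hij <;>
      simp [t, Matrix.SpecialLinearGroup.transvection, Matrix.transvection, Matrix.trace,
        Fin.sum_univ_two, Matrix.single] <;> norm_num
  have e1 : (2 : F) = e * 2 := by
    have := congrArg Matrix.trace h1'
    rw [Matrix.trace_smul, smul_eq_mul, Matrix.trace_mul_cycle,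
      ← Matrix.SpecialLinearGroup.coe_mul, inv_mul_cancel,
      Matrix.SpecialLinearGroup.coe_one, one_mul, htr] at this
    exact this
  have he1 : e = 1 := by
    rcases sq_eq_one_iff.1 he with h0 | h0
    · exact h0
    · rw [h0] at e1 ⊢
      by_cases h2 : (2 : F) = 0
      · linear_combination -h2
      · exact absurd (mul_self_eq_zero.1 (show (2 : F) * 2 = 0 by linear_combination e1)) h2
  have : g * t * g⁻¹ = t := Subtype.ext (by
    rw [Matrix.SpecialLinearGroup.coe_mul, Matrix.SpecialLinearGroup.coe_mul, h1', he1, one_smul])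
  rw [eq_comm, ← mul_inv_eq_iff_eq_mul]
  exact this

/-- `SL₂(q)` is perfect for `q ≥ 4`. -/
theorem isPerfect_SL_two [Finite F] (hF : 4 ≤ Nat.card F) : Group.IsPerfect SL(2, F) := by
  classical
  obtain ⟨a, ha0, ha1⟩ : ∃ a : F, a ≠ 0 ∧ a ^ 2 ≠ 1 := by
    by_contra hcon
    push Not at hcon
    have : Function.Surjective (fun i : Fin 3 => (![0, 1, -1] i : F)) := by
      intro c
      rcases eq_or_ne c 0 with rfl | h
      · exact ⟨0, rfl⟩
      · rcases sq_eq_one_iff.1 (hcon c h) with rfl | rfl
        · exact ⟨1, rfl⟩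
        · exact ⟨2, rfl⟩
    have := Nat.card_le_card_of_surjective _ this
    simp at this
    omega
  refine ⟨Linear.eq_top_of_transvection_mem _ fun i j hij c => ?_⟩
  set l : F := a ^ 2 - 1 with hl
  have hl0 : l ≠ 0 := sub_ne_zero.2 ha1
  set d : SL(2, F) := ⟨Matrix.diagonal fun k => if k = i then a else a⁻¹, by
    fin_cases i <;> simp [Matrix.det_diagonal, Fin.prod_univ_two, ha0]⟩
  set t := Matrix.SpecialLinearGroup.transvection hij (c / l)
  have key : Matrix.SpecialLinearGroup.transvection hij c = ⁅d, t⁆ := by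
    rw [commutatorElement_def, eq_mul_inv_iff_mul_eq, eq_mul_inv_iff_mul_eq]
    have e : d.1 * t.1 =
        (Matrix.SpecialLinearGroup.transvection hij c).1 * t.1 * d.1 := ?_
    · exact (Subtype.ext e).symm
    ext k k'
    have hi : a ^ 2 * (c / l) = c + c / l := by
      field_simp
      rw [hl]
      ring
    fin_cases i <;> fin_cases j <;> simp at hij <;> fin_cases k <;> fin_cases k' <;>
      simp [d, t, Matrix.SpecialLinearGroup.transvection, Matrix.transvection, Matrix.mul_apply,
        Fin.sum_univ_two, Matrix.single, Matrix.diagonal] <;> field_simp at hi ⊢ <;>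
      linear_combination -hi
  rw [key]
  exact Subgroup.commutator_mem_commutator (Subgroup.mem_top _) (Subgroup.mem_top _)

/-! ### Dimension three -/

/-- `(x₀, x, y) ↦ [[x, x₀], [x₀, -y]]`. -/
def incSym (F : Type u) [Field F] :
    (Unit ⊕ (Fin 1 ⊕ Fin 1) → F) →ₗ[F] Matrix (Fin 2) (Fin 2) F where
  toFun v := !![v (.inr (.inl 0)), v (.inl ()); v (.inl ()), -v (.inr (.inr 0))]
  map_add' u v := by ext i j; fin_cases i <;> fin_cases j <;> simp [add_comm]
  map_smul' c v := by ext i j; fin_cases i <;> fin_cases j <;> simp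

/-- A retraction of `incSym`. -/
def prjSym (F : Type u) [Field F] :
    Matrix (Fin 2) (Fin 2) F →ₗ[F] (Unit ⊕ (Fin 1 ⊕ Fin 1) → F) where
  toFun X := Sum.elim (fun _ => X 0 1) (Sum.elim (fun _ => X 0 0) (fun _ => -X 1 1))
  map_add' X Y := by ext (i | i | i) <;> simp [add_comm]
  map_smul' c X := by ext (i | i | i) <;> simp

theorem prj_incSym (v : Unit ⊕ (Fin 1 ⊕ Fin 1) → F) : prjSym F (incSym F v) = v := by
  ext (i | i | i) <;> simp [incSym, prjSym] <;> fin_cases i <;> rfl

theorem inc_prjSym {X : Matrix (Fin 2) (Fin 2) F} (h : X.transpose = X) :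
    incSym F (prjSym F X) = X := by
  have h' : X 1 0 = X 0 1 := congrFun (congrFun h 0) 1
  ext i j
  fin_cases i <;> fin_cases j <;> simp [incSym, prjSym, h']

theorem det_incSym (v : Unit ⊕ (Fin 1 ⊕ Fin 1) → F) : (incSym F v).det = -oddQF 1 F v := by
  simp [oddQF_apply, Cfsg.quadFormOdd, incSym, Matrix.det_fin_two]
  ring

/-- The twisted representation `g ↦ g / det g`. -/
noncomputable def divDet : GL (Fin 2) F →* Matrix (Fin 2) (Fin 2) F where
  toFun g := (g.1.det)⁻¹ • g.1
  map_one' := by simp
  map_mul' g h := by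
    rw [Units.val_mul, Matrix.det_mul, mul_inv, Matrix.smul_mul, Matrix.mul_smul, smul_smul]

/-- `GL₂` acting on symmetric matrices, into the orthogonal group of dimension three. -/
noncomputable def glToO3 : GL (Fin 2) F →* OQ (oddQF 1 F) :=
  actHom (oddQF 1 F) (incSym F) (prjSym F) prj_incSym
    (sandwich divDet (Units.coeHom _))
    (fun g v => inc_prjSym (by
      have hs : (incSym F v).transpose = incSym F v := by
        ext i j; fin_cases i <;> fin_cases j <;> simp [incSym]
      simp [sandwich_apply, divDet, Matrix.transpose_mul, hs, Matrix.mul_assoc]))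
    (fun g v => by
      have hd : g.1.det ≠ 0 := by
        have := Matrix.GeneralLinearGroup.det_ne_zero g
        exact this
      have hs : (incSym F v).transpose = incSym F v := by
        ext i j; fin_cases i <;> fin_cases j <;> simp [incSym]
      apply neg_injective
      rw [← det_incSym, ← det_incSym, inc_prjSym (by
        simp [sandwich_apply, divDet, Matrix.transpose_mul, hs, Matrix.mul_assoc])]
      simp [sandwich_apply, divDet, Matrix.det_mul, Matrix.det_transpose]
      field_simp)

theorem glToO3_ker (g : GL (Fin 2) F) :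
    g ∈ (glToO3 (F := F)).ker ↔ ∃ c : F, g.1 = c • 1 := by
  have hd : g.1.det ≠ 0 := Matrix.GeneralLinearGroup.det_ne_zero g
  rw [glToO3, mem_ker_actHom]
  constructor
  · intro h
    have e1 := h (Sum.elim (fun _ => 0) (Sum.elim (fun _ => 1) (fun _ => 0)))
    have e2 := h (Sum.elim (fun _ => 1) (fun _ => 0))
    have e3 := h (Sum.elim (fun _ => 0) (Sum.elim (fun _ => 0) (fun _ => 1)))
    have a := congrFun (congrFun e1 0) 0
    have b := congrFun (congrFun e1 1) 1
    have c := congrFun (congrFun e3 0) 0
    have d := congrFun (congrFun e2 0) 1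
    simp [sandwich_apply, divDet, incSym, Matrix.mul_apply, Fin.sum_univ_two] at a b c d
    simp [Matrix.det_fin_two] at a b c d hd
    field_simp at a b c d
    refine ⟨g.1 0 0, ?_⟩
    have h10 : g.1 1 0 = 0 := b.resolve_left hd
    have h01 : g.1 0 1 = 0 := c.resolve_left hd
    rw [h10, h01] at a d hd
    have h00 : g.1 0 0 ≠ 0 := fun h0 => hd (by rw [h0]; ring)
    have h11 : g.1 1 1 = g.1 0 0 := mul_left_cancel₀ h00 (by linear_combination -a)
    ext i j
    fin_cases i <;> fin_cases j <;> simp [h10, h01, h11]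
  · rintro ⟨c, hc⟩ v
    have hc0 : c ≠ 0 := by rintro rfl; simp [hc] at hd
    simp [sandwich_apply, divDet, hc, Matrix.det_smul, smul_smul]
    field_simp
    simp

theorem card_O3 [Finite F] (hodd : Odd (Nat.card F)) :
    Nat.card (OQ (oddQF 1 F)) = 2 * Nat.card F * (Nat.card F ^ 2 - 1) := by
  rw [Nat.card_congr (OQCongr (oddEquiv 1) (oddEquiv_spec 1)).toEquiv, card_OQ_odd hodd]
  simp

theorem nonempty_POmega_three [Fintype F] (hodd : Odd (Fintype.card F)) :
    Nonempty (Cfsg.POmega F (Cfsg.quadFormOdd 1 F) ≃*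
      Matrix.ProjectiveSpecialLinearGroup (Fin 2) F) := by
  have : Finite (OQ (oddQF 1 F)) := Finite.of_injective (fun g => (g.1 : _ → _))
    fun a b h => Subtype.ext (LinearEquiv.ext (congrFun h))
  have h2 : (2 : F) ≠ 0 := two_ne_zero_of_odd (by rwa [Nat.card_eq_fintype_card])
  set q := Fintype.card F with hq
  have hq3 : 3 ≤ q := by
    have := Fintype.one_lt_card (α := F)
    obtain ⟨k, hk⟩ := hodd
    omega
  set φ : SL(2, F) →* OQ (oddQF 1 F) := glToO3.comp Matrix.SpecialLinearGroup.toGL with hφ
  have hGL : commutator (GL (Fin 2) F) =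
      (Matrix.SpecialLinearGroup.toGL : SL(2, F) →* GL (Fin 2) F).range := by
    rw [Linear.range_toGL_eq_ker_det]
    refine Linear.commutator_GL_eq_ker_det fun _ => Or.inr ⟨-1, neg_ne_zero.2 one_ne_zero, ?_⟩
    intro e
    exact h2 (by linear_combination -e)
  have hrange : φ.range = (commutator (GL (Fin 2) F)).map glToO3 := by
    rw [hGL, hφ, MonoidHom.range_eq_map, ← Subgroup.map_map, ← MonoidHom.range_eq_map]
  have hcardO : Nat.card (OQ (oddQF 1 F)) = 2 * Nat.card SL(2, F) := by
    rw [card_O3 (by rwa [Nat.card_eq_fintype_card]), Linear.card_SL_two, Nat.card_eq_fintype_card,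
      show q ^ 2 - 1 = (q - 1) * (q + 1) by rw [mul_comm (q - 1), ← Nat.sq_sub_sq, one_pow]]
    ring
  have hker : ∀ g : SL(2, F), g ∈ φ.ker ↔ ∃ c : F, g.1 = c • 1 := fun g => glToO3_ker _
  have hkerle : Nat.card φ.ker ≤ 2 := by
    have := finite_sq_eq_one (F := F)
    refine le_trans (Nat.card_le_card_of_injective
      (β := {c : F // c ^ 2 = 1}) (fun g => ⟨((hker g.1).1 g.2).choose,
        scalar_sq ((hker g.1).1 g.2).choose_spec⟩) ?_) card_sq_eq_one_le
    intro a b hab
    refine Subtype.ext (Subtype.ext ?_)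
    exact ((hker a.1).1 a.2).choose_spec.trans ((congrArg (fun c : F => c • (1 : Matrix (Fin 2) (Fin 2) F))
      (Subtype.mk.inj hab)).trans ((hker b.1).1 b.2).choose_spec.symm)
  have hindex : φ.range.index ≤ 4 :=
    index_le_of_card φ (by rw [hcardO]; nlinarith)
  have hKind : (glToO3 (F := F)).range.index ≤ 2 := by
    have hk : Nat.card (glToO3 (F := F)).ker ≤ q - 1 := by
      rw [← Linear.card_units_eq]
      refine Nat.card_le_card_of_injective (fun g => Units.mk0
        ((glToO3_ker g.1).1 g.2).choose (fun h0 => ?_)) ?_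
      · have := ((glToO3_ker g.1).1 g.2).choose_spec
        rw [h0, zero_smul] at this
        exact g.1.ne_zero this
      · intro a b hab
        refine Subtype.ext (Units.ext ?_)
        exact ((glToO3_ker a.1).1 a.2).choose_spec.trans
          ((congrArg (fun c : Fˣ => (c : F) • (1 : Matrix (Fin 2) (Fin 2) F)) hab).trans
            ((glToO3_ker b.1).1 b.2).choose_spec.symm)
    have h1 : Nat.card (glToO3 (F := F)).ker * Nat.card (glToO3 (F := F)).range =
        Nat.card (GL (Fin 2) F) := by rw [← Subgroup.index_ker, Subgroup.card_mul_index]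
    have h3 := Subgroup.card_mul_index (glToO3 (F := F)).range
    rw [hcardO] at h3
    rw [Linear.card_GL_eq_mul_card_SL, Linear.card_units_eq] at h1
    have hpos : 0 < q - 1 := by omega
    have hS : Nat.card SL(2, F) ≤ Nat.card (glToO3 (F := F)).range := by
      refine le_of_mul_le_mul_left ?_ hpos
      rw [← h1]
      exact Nat.mul_le_mul_right _ hk
    have hR : 0 < Nat.card (glToO3 (F := F)).range := Finite.card_pos
    refine le_of_mul_le_mul_left ?_ hR
    rw [h3]
    nlinarith
  have hnormal : φ.range.Normal := by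
    refine normal_of_index_two φ.range glToO3.range hKind ?_ (z := negQ (oddQF 1 F)) ?_ ?_
    · rw [hrange, MonoidHom.range_eq_map]
      refine (Subgroup.map_mono ?_).trans (Subgroup.le_normalizer_map _)
      rw [Subgroup.normalizer_eq_top]
    · refine (Subgroup.mem_normalizer_iff).2 fun x => ?_
      have : negQ (oddQF 1 F) * x * (negQ (oddQF 1 F))⁻¹ = x := by
        rw [mul_inv_eq_iff_eq_mul]
        exact Subtype.ext (LinearEquiv.ext fun v => by simp [negQ])
      rw [this]
    · rintro ⟨g, hg⟩
      have hd : g.1.det ≠ 0 := Matrix.GeneralLinearGroup.det_ne_zero g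
      have hv : ∀ v, sandwich (k := F) divDet (Units.coeHom _) g (incSym F v) = -incSym F v := by
        intro v
        have e : prjSym F (sandwich (k := F) divDet (Units.coeHom _) g (incSym F v)) = -v := by
          have := congrArg (fun x : OQ (oddQF 1 F) => x.1 v) hg
          simpa [negQ, glToO3, actHom_apply] using this
        have hs : (incSym F v).transpose = incSym F v := by
          ext i j; fin_cases i <;> fin_cases j <;> simp [incSym]
        rw [← map_neg, ← e, inc_prjSym]
        simp [sandwich_apply, divDet, Matrix.transpose_mul, hs, Matrix.mul_assoc]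
      have e1 := hv (Sum.elim (fun _ => 0) (Sum.elim (fun _ => 1) (fun _ => 0)))
      have e2 := hv (Sum.elim (fun _ => 1) (fun _ => 0))
      have a := congrFun (congrFun e1 0) 0
      have b := congrFun (congrFun e1 1) 1
      have c := congrFun (congrFun e2 0) 0
      have d := congrFun (congrFun e2 0) 1
      simp [sandwich_apply, divDet, incSym, Matrix.mul_apply, Fin.sum_univ_two] at a b c d
      simp [Matrix.det_fin_two] at a b c d hd
      field_simp at a b c d
      grind
  have hcomm : commutator (OQ (oddQF 1 F)) = φ.range := by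
    refine le_antisymm (commutator_le_of_index _ hindex) ?_
    rw [hrange, commutator_def, Subgroup.map_commutator, commutator_def]
    exact Subgroup.commutator_mono le_top le_top
  refine nonempty_POmega_of (Cfsg.quadFormOdd 1 F) (oddQF 1 F) (oddQF_apply 1) φ hcomm fun g => ?_
  constructor
  · intro h x
    rw [commutatorElement_eq_one_iff_mul_comm.2 (Subgroup.mem_center_iff.1 h x).symm, map_one]
  · intro h
    refine center_of_commute_scalar g fun x => ?_
    obtain ⟨c, hc⟩ := (hker _).1 (MonoidHom.mem_ker.2 (h x))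
    exact ⟨c, scalar_sq hc, hc⟩

end Cfsg.Agent.Classical.Exc
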