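/-
The minus-type orthogonal group in dimension four and the two-dimensional linear group over the
quadratic extension.
-/
import Mathlib
import Cfsg.Prelude.Def_Classical
import Cfsg.Agent.Classical.ExcBasic
import Cfsg.Agent.Classical.ExcTwo
import Cfsg.Agent.Classical.OrthForms
import Cfsg.Agent.Classical.UBasic
import Cfsg.Agent.Classical.UTwo
import Cfsg.Agent.Linear.Orders

set_option autoImplicit false

namespace Cfsg.Agent.Classical.Exc

open Matrix
open scoped MatrixGroups

universe u v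

variable {F : Type u} [Field F] [Fintype F] {K : Type v} [Field K] [Fintype K] {q : ℕ}

/-- The quadratic extension together with its involution and a root of `t² - a t + b`. -/
structure QuadExt (F : Type u) (K : Type v) [Field F] [Field K] (q : ℕ) (a b : F) where
  /-- The embedding of the small field. -/
  ι : F →+* K
  /-- The involution. -/
  σ : K →+* K
  /-- The root. -/
  ω : K
  σ_eq : ∀ x, σ x = x ^ q
  σ_σ : ∀ x, σ (σ x) = x
  fixed : ∀ x, σ x = x ↔ ∃ y, ι y = x
  sum_eq : ω + σ ω = ι a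
  prod_eq : ω * σ ω = ι b
  ne : σ ω ≠ ω

theorem nonempty_quadExt (hF : Fintype.card F = q) (hK : Fintype.card K = q ^ 2) {a b : F}
    (hA : (binQF a b).Anisotropic) : Nonempty (QuadExt F K q a b) := by
  have hS := U.sqField_of_fintype hK
  obtain ⟨ι, hι⟩ := U.exists_fixed_embedding hS
    (show Nat.card F = q by rw [Nat.card_eq_fintype_card, hF])
  letI : Algebra F K := ι.toAlgebra
  have hrank : Module.finrank F K = 2 := by
    have h := Module.natCard_eq_pow_finrank (K := F) (V := K)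
    rw [Nat.card_eq_fintype_card, Nat.card_eq_fintype_card, hK, hF] at h
    exact (Nat.pow_right_injective hS.one_lt h).symm
  set f : Polynomial F := Polynomial.X ^ 2 - Polynomial.C a * Polynomial.X + Polynomial.C b with hf
  have hdeg : f.natDegree = 2 := by rw [hf]; compute_degree!
  have hf0 : f ≠ 0 := fun h => by simp [h] at hdeg
  have hroot : ∀ r : F, r ^ 2 - a * r + b ≠ 0 := by
    intro r hr
    have := congrFun (hA ![-r, 1] (by simp; linear_combination hr)) 1
    simp at this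
  have hirr : Irreducible f := by
    rw [Polynomial.irreducible_iff_roots_eq_zero_of_degree_le_three (by omega) (by omega)]
    refine Multiset.eq_zero_of_forall_notMem fun r hr => ?_
    rw [Polynomial.mem_roots hf0, Polynomial.IsRoot.def] at hr
    exact hroot r (by simpa [hf] using hr)
  have : Fact (Irreducible f) := ⟨hirr⟩
  obtain ⟨g⟩ := FiniteField.nonempty_algHom_of_finrank_dvd (F := F) (K := AdjoinRoot f) (L := K)
    (by rw [(AdjoinRoot.powerBasis hf0).finrank, AdjoinRoot.powerBasis_dim, hdeg, hrank])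
  obtain ⟨p, k, hp, hcp, hpk⟩ := hS.exists_char
  have : Fact p.Prime := ⟨hp⟩
  let σ : K →+* K := iterateFrobenius K p k
  have hσ : ∀ x : K, σ x = x ^ q := fun x => by simp [σ, iterateFrobenius_def, hpk]
  set ω : K := g (AdjoinRoot.root f)
  have hω : ω ^ 2 - ι a * ω + ι b = 0 := by
    have h := congrArg g (AdjoinRoot.eval₂_root f)
    simp [hf, Polynomial.eval₂_add, Polynomial.eval₂_sub, Polynomial.eval₂_mul] at h
    have e : ∀ r : F, g (AdjoinRoot.of f r) = ι r := fun r => g.commutes r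
    simp only [e, hf] at h
    exact h
  have hfix : ∀ x, σ x = x ↔ ∃ y, ι y = x := fun x => by rw [hσ]; exact hι x
  have hne : σ ω ≠ ω := fun e => by
    obtain ⟨r, hr⟩ := (hfix ω).1 e
    rw [← hr, ← map_pow, ← map_mul, ← map_sub, ← map_add, map_eq_zero] at hω
    exact hroot r hω
  have hω' : σ ω ^ 2 - ι a * σ ω + ι b = 0 := by
    have ha : σ (ι a) = ι a := (hfix _).2 ⟨a, rfl⟩
    have hb : σ (ι b) = ι b := (hfix _).2 ⟨b, rfl⟩
    have := congrArg σ hω
    simpa [ha, hb] using this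
  have hsum : ω + σ ω = ι a :=
    mul_left_cancel₀ (sub_ne_zero.2 hne) (by linear_combination hω' - hω)
  exact ⟨⟨ι, σ, ω, hσ, fun x => by rw [hσ, hσ, hS.pow_pow], hfix, hsum,
    by linear_combination -hω + ω * hsum, hne⟩⟩

variable {a b : F}

/-- `z₀ + z₁ ω`. -/
def QuadExt.w (D : QuadExt F K q a b) (z₀ z₁ : F) : K := D.ι z₀ + D.ι z₁ * D.ω

theorem QuadExt.norm_w (D : QuadExt F K q a b) (z₀ z₁ : F) :
    D.w z₀ z₁ * D.σ (D.w z₀ z₁) = D.ι (z₀ ^ 2 + a * z₀ * z₁ + b * z₁ ^ 2) := by
  have h0 : D.σ (D.ι z₀) = D.ι z₀ := (D.fixed _).2 ⟨_, rfl⟩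
  have h1 : D.σ (D.ι z₁) = D.ι z₁ := (D.fixed _).2 ⟨_, rfl⟩
  simp only [QuadExt.w, map_add, map_mul, h0, h1, map_pow]
  linear_combination (D.ι z₀ * D.ι z₁) * D.sum_eq + D.ι z₁ ^ 2 * D.prod_eq

theorem QuadExt.exists_w (D : QuadExt F K q a b) (x : K) : ∃ z₀ z₁, D.w z₀ z₁ = x := by
  have hd : D.ω - D.σ D.ω ≠ 0 := sub_ne_zero.2 (Ne.symm D.ne)
  set r := (x - D.σ x) / (D.ω - D.σ D.ω)
  have hr : D.σ r = r := by
    simp only [r, map_div₀, map_sub, D.σ_σ]
    rw [← neg_sub x (D.σ x), ← neg_sub D.ω (D.σ D.ω), neg_div_neg_eq]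
  obtain ⟨z₁, hz₁⟩ := (D.fixed r).1 hr
  have hz : D.σ (x - r * D.ω) = x - r * D.ω := by
    rw [map_sub, map_mul, hr]
    have : r * (D.ω - D.σ D.ω) = x - D.σ x := div_mul_cancel₀ _ hd
    linear_combination this
  obtain ⟨z₀, hz₀⟩ := (D.fixed _).1 hz
  exact ⟨z₀, z₁, by rw [QuadExt.w, hz₀, hz₁]; ring⟩

theorem QuadExt.w_injective (D : QuadExt F K q a b) {z₀ z₁ y₀ y₁ : F}
    (h : D.w z₀ z₁ = D.w y₀ y₁) : z₀ = y₀ ∧ z₁ = y₁ := by
  have h0 : ∀ c, D.σ (D.ι c) = D.ι c := fun c => (D.fixed _).2 ⟨_, rfl⟩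
  have h' := congrArg D.σ h
  simp only [QuadExt.w, map_add, map_mul, h0] at h h'
  have e : D.ι z₁ = D.ι y₁ := mul_right_cancel₀ (sub_ne_zero.2 D.ne) (by linear_combination h' - h)
  rw [e, add_left_inj] at h
  exact ⟨D.ι.injective h, D.ι.injective e⟩

set_option maxHeartbeats 1000000 in
theorem nonempty_POmega_four_minus (hF : Fintype.card F = q) (hK : Fintype.card K = q ^ 2) (a b : F)
    (hab : ∀ z₁ z₂ : F, z₁ ^ 2 + a * z₁ * z₂ + b * z₂ ^ 2 = 0 → z₁ = 0 ∧ z₂ = 0) :
    Nonempty (Cfsg.POmega F (Cfsg.quadFormMinus 1 F a b) ≃*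
      Matrix.ProjectiveSpecialLinearGroup (Fin 2) K) := by
  classical
  have hA := anisotropic_binQF hab
  obtain ⟨D⟩ := nonempty_quadExt (K := K) hF hK hA
  letI : Algebra F K := D.ι.toAlgebra
  have hsmul : ∀ (c : F) (x : K), c • x = D.ι c * x := fun c x => rfl
  have h0 : ∀ c, D.σ (D.ι c) = D.ι c := fun c => (D.fixed _).2 ⟨_, rfl⟩
  let wL : (Fin 2 → F) →ₗ[F] K :=
    { toFun := fun z => D.w (z 0) (z 1)
      map_add' := fun z z' => by simp [QuadExt.w]; ring
      map_smul' := fun c z => by simp [QuadExt.w, hsmul]; ring }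
  have hwL : Function.Bijective wL := by
    constructor
    · intro z z' h
      obtain ⟨e0, e1⟩ := D.w_injective h
      ext i; fin_cases i
      · exact e0
      · exact e1
    · intro x
      obtain ⟨z₀, z₁, h⟩ := D.exists_w x
      exact ⟨![z₀, z₁], h⟩
  let e : (Fin 2 → F) ≃ₗ[F] K := LinearEquiv.ofBijective wL hwL
  have he : ∀ z, e z = D.w (z 0) (z 1) := fun z => rfl
  have he0 : ∀ c : F, e.symm (D.ι c) 0 = c := by
    intro c
    have : e ![c, 0] = D.ι c := by simp [he, QuadExt.w]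
    rw [← this, LinearEquiv.symm_apply_apply]
    rfl
  let inc : ((Fin 1 ⊕ Fin 1) ⊕ Fin 2 → F) →ₗ[F] Matrix (Fin 2) (Fin 2) K :=
    { toFun := fun v => !![D.ι (v (.inl (.inl 0))), D.w (v (.inr 0)) (v (.inr 1));
        D.σ (D.w (v (.inr 0)) (v (.inr 1))), -D.ι (v (.inl (.inr 0)))]
      map_add' := fun v v' => by
        ext i j; fin_cases i <;> fin_cases j <;> simp [QuadExt.w, h0] <;> ring
      map_smul' := fun c v => by
        ext i j; fin_cases i <;> fin_cases j <;> simp [QuadExt.w, h0, hsmul] <;> ring }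
  let prj : Matrix (Fin 2) (Fin 2) K →ₗ[F] ((Fin 1 ⊕ Fin 1) ⊕ Fin 2 → F) :=
    { toFun := fun X => Sum.elim (Sum.elim (fun _ => e.symm (X 0 0) 0) (fun _ => -e.symm (X 1 1) 0))
        (fun i => e.symm (X 0 1) i)
      map_add' := fun X X' => by ext ((i | i) | i) <;> simp <;> ring
      map_smul' := fun c X => by ext ((i | i) | i) <;> simp }
  have hpi : ∀ v, prj (inc v) = v := by
    intro v
    ext ((i | i) | i)
    · fin_cases i; simp [prj, inc, he0]
    · fin_cases i; simp [prj, inc, he0]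
    · have : e.symm (D.w (v (.inr 0)) (v (.inr 1))) = fun j => v (.inr j) := by
        rw [LinearEquiv.symm_apply_eq, he]
      simp [prj, inc, this]
  let IsHerm : Matrix (Fin 2) (Fin 2) K → Prop := fun X => (X.map D.σ)ᵀ = X
  have hinc : ∀ X, IsHerm X → inc (prj X) = X := by
    intro X hX
    have h00 : D.σ (X 0 0) = X 0 0 := congrFun (congrFun hX 0) 0
    have h11 : D.σ (X 1 1) = X 1 1 := congrFun (congrFun hX 1) 1
    have h10 : D.σ (X 0 1) = X 1 0 := congrFun (congrFun hX 1) 0
    obtain ⟨x, hx⟩ := (D.fixed _).1 h00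
    obtain ⟨y, hy⟩ := (D.fixed _).1 h11
    have hw : D.w (e.symm (X 0 1) 0) (e.symm (X 0 1) 1) = X 0 1 := by
      rw [← he, LinearEquiv.apply_symm_apply]
    ext i j
    fin_cases i <;> fin_cases j
    · simp [prj, inc, ← hx, he0]
    · simp [prj, inc, hw]
    · simp [prj, inc, hw, h10]
    · simp [prj, inc, ← hy, he0]
  have hincH : ∀ v, IsHerm (inc v) := by
    intro v
    ext i j; fin_cases i <;> fin_cases j <;> simp [inc, h0, D.σ_σ, IsHerm]
  have hdet : ∀ v, (inc v).det = -D.ι (minusQF 1 a b v) := by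
    intro v
    have := D.norm_w (v (.inr 0)) (v (.inr 1))
    simp [inc, Matrix.det_fin_two, minusQF_apply, Cfsg.quadFormMinus] at this ⊢
    linear_combination -this
  let cj : SL(2, K) →* Matrix (Fin 2) (Fin 2) K :=
    (RingHom.mapMatrix D.σ).toMonoidHom.comp (slMat K 2)
  let T : SL(2, K) →* Module.End F (Matrix (Fin 2) (Fin 2) K) := sandwich (slMat K 2) cj
  have hT : ∀ g X, T g X = g.1 * X * (g.1.map D.σ)ᵀ := fun g X => rfl
  have hTH : ∀ g v, IsHerm (T g (inc v)) := by
    intro g v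
    have hσσ : (g.1.map D.σ).map D.σ = g.1 := by ext i j; simp [D.σ_σ]
    simp only [IsHerm, hT, Matrix.map_mul, Matrix.transpose_mul, Matrix.transpose_map, hσσ,
      Matrix.transpose_transpose]
    rw [hincH v, mul_assoc]
  let φ : SL(2, K) →* OQ (minusQF 1 a b) :=
    actHom (minusQF 1 a b) inc prj hpi T (fun g v => hinc _ (hTH g v)) (fun g v => by
      apply D.ι.injective
      apply neg_injective
      rw [← hdet, ← hdet, hinc _ (hTH g v), hT, Matrix.det_mul, Matrix.det_mul,
        Matrix.det_transpose, ← RingHom.mapMatrix_apply, ← RingHom.map_det, g.2, map_one]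
      simp)
  have hker : ∀ g, g ∈ φ.ker → ∃ c : K, c ^ 2 = 1 ∧ g.1 = c • 1 := by
    intro g hg
    rw [mem_ker_actHom] at hg
    have e1 := hg (Sum.elim (Sum.elim (fun _ => 1) (fun _ => 0)) (fun _ => 0))
    have e2 := hg (Sum.elim (Sum.elim (fun _ => 0) (fun _ => 1)) (fun _ => 0))
    have e3 := hg (Sum.elim (fun _ => 0) ![1, 0])
    have a0 := congrFun (congrFun e1 0) 0
    have a1 := congrFun (congrFun e1 1) 1
    have b0 := congrFun (congrFun e2 0) 0
    have c0 := congrFun (congrFun e3 0) 1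
    have b1 := congrFun (congrFun e2 1) 1
    simp [hT, inc, QuadExt.w, Matrix.mul_apply, Fin.sum_univ_two] at a0 a1 b0 b1 c0
    have g10 : g.1 1 0 = 0 := by simpa using a1
    have g01 : g.1 0 1 = 0 := by simpa using b0
    have hd : g.1 0 0 * g.1 1 1 = 1 := by
      have := g.2
      rw [Matrix.det_fin_two, g10, mul_zero, sub_zero] at this
      exact this
    rw [g10, g01] at c0
    simp at c0
    have h11 : g.1 1 1 = g.1 0 0 := by
      have h := mul_left_cancel₀ (left_ne_zero_of_mul_eq_one hd) (c0.trans hd.symm)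
      -- `σ g₁₁ = g₁₁`
      have hs : D.σ (g.1 1 1) * g.1 1 1 = 1 := by
        simpa [mul_comm] using b1
      rw [h] at hs
      exact mul_right_cancel₀ (right_ne_zero_of_mul_eq_one hd) (hs.trans hd.symm)
    refine ⟨g.1 0 0, by rw [pow_two]; rwa [h11] at hd, ?_⟩
    ext i j
    fin_cases i <;> fin_cases j <;> simp [g10, g01, h11]
  have hkcard : Nat.card φ.ker ≤ 2 := by
    have := finite_sq_eq_one (F := K)
    choose c hc1 hc2 using fun x : φ.ker => hker x.1 x.2
    refine le_trans (Nat.card_le_card_of_injective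
      (β := {c : K // c ^ 2 = 1}) (fun x => ⟨c x, hc1 x⟩) ?_) card_sq_eq_one_le
    intro x y hxy
    refine Subtype.ext (Subtype.ext ?_)
    have e' : c x = c y := congrArg Subtype.val hxy
    rw [hc2, hc2, e']
  have hkc : φ.ker ≤ Subgroup.center SL(2, K) := fun g hg => by
    obtain ⟨c, -, e⟩ := hker g hg
    exact scalar_center g e
  have : Finite (OQ (minusQF 1 a b)) := Finite.of_injective (fun g => (g.1 : _ → _))
    fun x y h => Subtype.ext (LinearEquiv.ext (congrFun h))
  have hcardO : Nat.card (OQ (minusQF 1 a b)) = 2 * Nat.card SL(2, K) := by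
    rw [Nat.card_congr (OQCongr (minusEquiv 1) (minusEquiv_spec 1 a b)).toEquiv, card_OQ_minus hA 1,
      Linear.card_SL_two, Nat.card_eq_fintype_card, hF, hK]
    norm_num
    ring
  have : Group.IsPerfect SL(2, K) := isPerfect_SL_two (by
    rw [Nat.card_eq_fintype_card, hK]
    have := Fintype.one_lt_card (α := F)
    rw [hF] at this
    nlinarith)
  exact nonempty_POmega_of (Cfsg.quadFormMinus 1 F a b) (minusQF 1 a b) (minusQF_apply 1 a b) φ
    (commutator_eq_range φ (index_le_of_card φ (by rw [hcardO]; nlinarith)))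
    (center_iff_of_perfect φ hkc)

end Cfsg.Agent.Classical.Exc
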