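/-
Alternating 4 × 4 matrices: the six-dimensional orthogonal representation of `SL₄`.
-/
import Mathlib
import Cfsg.Prelude.Def_Classical
import Cfsg.Agent.Classical.ExcBasic
import Cfsg.Agent.Classical.ExcTwo
import Cfsg.Agent.Classical.OrthForms
import Cfsg.Agent.Linear.Orders
import Cfsg.Agent.Linear.Transvection

set_option autoImplicit false

namespace Cfsg.Agent.Classical.Exc

open Matrix

universe u

variable {F : Type u} [Field F]

/-- The alternating matrix with upper entries `(x₀, x₁, x₂, y₂, -y₁, y₀)`. -/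
def incAlt (F : Type u) [Field F] : (Fin 3 ⊕ Fin 3 → F) →ₗ[F] Matrix (Fin 4) (Fin 4) F where
  toFun v := !![0, v (.inl 0), v (.inl 1), v (.inl 2);
    -v (.inl 0), 0, v (.inr 2), -v (.inr 1);
    -v (.inl 1), -v (.inr 2), 0, v (.inr 0);
    -v (.inl 2), v (.inr 1), -v (.inr 0), 0]
  map_add' u v := by ext i j; fin_cases i <;> fin_cases j <;> simp <;> ring
  map_smul' c v := by ext i j; fin_cases i <;> fin_cases j <;> simp

/-- A retraction of `incAlt`. -/
def prjAlt (F : Type u) [Field F] : Matrix (Fin 4) (Fin 4) F →ₗ[F] (Fin 3 ⊕ Fin 3 → F) where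
  toFun X := Sum.elim ![X 0 1, X 0 2, X 0 3] ![X 2 3, -X 1 3, X 1 2]
  map_add' X Y := by ext (i | i) <;> fin_cases i <;> simp <;> ring
  map_smul' c X := by ext (i | i) <;> fin_cases i <;> simp

theorem prj_incAlt (v : Fin 3 ⊕ Fin 3 → F) : prjAlt F (incAlt F v) = v := by
  ext (i | i) <;> fin_cases i <;> simp [incAlt, prjAlt]

set_option maxHeartbeats 4000000 in
theorem inc_prjAlt_sandwich (A : Matrix (Fin 4) (Fin 4) F) (v : Fin 3 ⊕ Fin 3 → F) :
    incAlt F (prjAlt F (A * incAlt F v * Aᵀ)) = A * incAlt F v * Aᵀ := by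
  ext i j
  fin_cases i <;> fin_cases j <;>
    simp [incAlt, prjAlt, Matrix.mul_apply, Fin.sum_univ_four] <;> ring

set_option maxHeartbeats 8000000 in
theorem pf_sandwich (A : Matrix (Fin 4) (Fin 4) F) (v : Fin 3 ⊕ Fin 3 → F) :
    plusQF 3 F (prjAlt F (A * incAlt F v * Aᵀ)) = A.det * plusQF 3 F v := by
  simp [incAlt, prjAlt, plusQF_apply, Cfsg.quadFormPlus, Matrix.mul_apply, Fin.sum_univ_four,
    Fin.sum_univ_three, Matrix.det_succ_row_zero, Fin.sum_univ_succ, Fin.succAbove]
  ring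

/-- The natural action on matrices. -/
def congrEnd (F : Type u) [Field F] :
    Matrix.SpecialLinearGroup (Fin 4) F →* Module.End F (Matrix (Fin 4) (Fin 4) F) :=
  sandwich (slMat F 4) (slMat F 4)

theorem congrEnd_apply (g : Matrix.SpecialLinearGroup (Fin 4) F) (X : Matrix (Fin 4) (Fin 4) F) :
    congrEnd F g X = g.1 * X * g.1ᵀ := rfl

/-- `SL₄` acting on alternating matrices. -/
noncomputable def slToO6 : Matrix.SpecialLinearGroup (Fin 4) F →* OQ (plusQF 3 F) :=
  actHom (plusQF 3 F) (incAlt F) (prjAlt F) prj_incAlt (congrEnd F)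
    (fun g v => inc_prjAlt_sandwich g.1 v)
    (fun g v => by rw [congrEnd_apply, pf_sandwich, g.2, one_mul])

theorem slToO6_apply (g : Matrix.SpecialLinearGroup (Fin 4) F) (v : Fin 3 ⊕ Fin 3 → F) :
    (slToO6 g).1 v = prjAlt F (g.1 * incAlt F v * g.1ᵀ) := rfl

/-- The elementary alternating matrices. -/
def eAlt (F : Type u) [Field F] (i j : Fin 4) : Matrix (Fin 4) (Fin 4) F :=
  Matrix.single i j 1 - Matrix.single j i 1

theorem inc_prj_eAlt (i j : Fin 4) : incAlt F (prjAlt F (eAlt F i j)) = eAlt F i j := by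
  ext k l
  fin_cases i <;> fin_cases j <;> fin_cases k <;> fin_cases l <;>
    simp [eAlt, incAlt, prjAlt, Matrix.single]

theorem slToO6_ker (g : Matrix.SpecialLinearGroup (Fin 4) F) :
    g ∈ (slToO6 (F := F)).ker ↔ ∃ c : F, c ^ 2 = 1 ∧ g.1 = c • 1 := by
  refine (mem_ker_actHom (plusQF 3 F) (incAlt F) (prjAlt F) prj_incAlt (congrEnd F) _ _ g).trans ?_
  constructor
  · intro h
    set A := g.1 with hA
    have hu : IsUnit Aᵀ.det := by rw [Matrix.det_transpose, hA, g.2]; exact isUnit_one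
    set B := Aᵀ⁻¹ with hB
    have he : ∀ i j, A * eAlt F i j = eAlt F i j * B := by
      intro i j
      have h' := h (prjAlt F (eAlt F i j))
      rw [congrEnd_apply, inc_prj_eAlt] at h'
      calc A * eAlt F i j = A * eAlt F i j * Aᵀ * B := by
            rw [hB, mul_assoc, mul_assoc, Matrix.mul_nonsing_inv _ hu, mul_one]
        _ = _ := by rw [h']
    have e1 : ∀ i j k, k ≠ i → k ≠ j → i ≠ j → A k i = 0 := by
      intro i j k hki hkj hij
      have := congrFun (congrFun (he i j) k) j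
      simpa [eAlt, Matrix.mul_sub, Matrix.sub_mul, hki, hkj, hij, Ne.symm hij, Ne.symm hki,
        Ne.symm hkj] using this
    have e2 : ∀ i j, i ≠ j → A i i = B j j := by
      intro i j hij
      have := congrFun (congrFun (he i j) i) j
      simpa [eAlt, Matrix.mul_sub, Matrix.sub_mul, hij, Ne.symm hij] using this
    have hdiag : ∀ i, A i i = A 0 0 := by
      intro i
      obtain ⟨j, hj0, hji⟩ : ∃ j : Fin 4, j ≠ 0 ∧ j ≠ i := by revert i; decide
      rw [e2 i j hji.symm, e2 0 j hj0.symm]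
    have hAs : A = A 0 0 • 1 := by
      ext k i
      rcases eq_or_ne k i with rfl | hki
      · simp [hdiag k]
      · obtain ⟨j, hjk, hji⟩ : ∃ j : Fin 4, j ≠ k ∧ j ≠ i := by revert k i; decide
        simp [Matrix.one_apply_ne hki, e1 i j k hki hjk.symm hji.symm]
    refine ⟨A 0 0, ?_, hAs⟩
    have h' := h (prjAlt F (eAlt F 0 1))
    rw [congrEnd_apply, inc_prj_eAlt, ← hA, hAs] at h'
    have := congrFun (congrFun h' 0) 1
    simp [eAlt, Matrix.smul_mul, Matrix.mul_smul] at this
    rw [pow_two]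
    exact this
  · rintro ⟨c, hc, e⟩ v
    rw [congrEnd_apply, e]
    simp [Matrix.smul_mul, Matrix.mul_smul, smul_smul, ← pow_two, hc]

theorem ker_slToO6_le_center : (slToO6 (F := F)).ker ≤ Subgroup.center _ := fun g hg => by
  obtain ⟨c, -, e⟩ := (slToO6_ker g).1 hg
  exact scalar_center g e

/-- The kernel of a restriction of `slToO6` has at most two elements. -/
theorem card_ker_le_two {G : Type*} [Group G] {H : Type*} [Group H] (φ : G →* H)
    (j : G →* Matrix.SpecialLinearGroup (Fin 4) F) (hj : Function.Injective j)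
    (h : ∀ g, g ∈ φ.ker → j g ∈ (slToO6 (F := F)).ker) : Nat.card φ.ker ≤ 2 := by
  have := finite_sq_eq_one (F := F)
  choose c hc1 hc2 using fun x : φ.ker => (slToO6_ker _).1 (h x.1 x.2)
  refine le_trans (Nat.card_le_card_of_injective
    (β := {c : F // c ^ 2 = 1}) (fun x => ⟨c x, hc1 x⟩) ?_) card_sq_eq_one_le
  intro x y hxy
  have e : c x = c y := congrArg Subtype.val hxy
  refine Subtype.ext (hj (Subtype.ext ?_))
  rw [hc2, hc2, e]

theorem isPerfect_SL_four : Group.IsPerfect (Matrix.SpecialLinearGroup (Fin 4) F) :=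
  ⟨Linear.commutator_SL_eq_top (by simp)⟩

theorem nonempty_POmega_six_plus [Fintype F] :
    Nonempty (Cfsg.POmega F (Cfsg.quadFormPlus 3 F) ≃*
      Matrix.ProjectiveSpecialLinearGroup (Fin 4) F) := by
  classical
  have : Finite (OQ (plusQF 3 F)) := Finite.of_injective (fun g => (g.1 : _ → _))
    fun x y h => Subtype.ext (LinearEquiv.ext (congrFun h))
  have := isPerfect_SL_four (F := F)
  have hcardO : Nat.card (OQ (plusQF 3 F)) =
      2 * Nat.card (Matrix.SpecialLinearGroup (Fin 4) F) := by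
    rw [Nat.card_congr (OQCongr (plusEquiv 3) (plusEquiv_spec 3)).toEquiv, card_OQ_plus 2,
      Nat.card_eq_fintype_card (α := F)]
    apply Nat.eq_of_mul_eq_mul_left (Linear.sub_one_pos (F := F))
    rw [mul_left_comm _ 2 (Nat.card (Matrix.SpecialLinearGroup (Fin 4) F)), Linear.card_SL_mul]
    set q := Fintype.card F
    simp only [Fin.prod_univ_four, Finset.prod_range_succ, Finset.prod_range_zero, Fin.isValue,
      Fin.val_zero, Fin.val_one, Fin.val_two, show ((3 : Fin 4) : ℕ) = 3 from rfl]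
    have e0 : q ^ 4 - q ^ 0 = q ^ 4 - 1 := by simp
    have e1 : q ^ 4 - q ^ 1 = q * (q ^ 3 - 1) := by rw [Nat.mul_sub, mul_one]; ring_nf
    have e2 : q ^ 4 - q ^ 2 = q ^ 2 * (q ^ 2 - 1) := by rw [Nat.mul_sub, mul_one]; ring_nf
    have e3 : q ^ 4 - q ^ 3 = q ^ 3 * (q - 1) := by rw [Nat.mul_sub, mul_one]; ring_nf
    rw [e0, e1, e2, e3]
    ring
  refine nonempty_POmega_of (Cfsg.quadFormPlus 3 F) (plusQF 3 F) (plusQF_apply 3) slToO6
    (commutator_eq_range slToO6 (index_le_of_card slToO6 ?_))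
    (center_iff_of_perfect slToO6 ker_slToO6_le_center)
  have := card_ker_le_two (slToO6 (F := F)) (MonoidHom.id _) Function.injective_id fun g hg => hg
  rw [hcardO]
  nlinarith

end Cfsg.Agent.Classical.Exc
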