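/-
The five-dimensional orthogonal group and the four-dimensional symplectic group, in odd
characteristic.
-/
import Mathlib
import Cfsg.Prelude.Def_Classical
import Cfsg.Agent.Classical.ExcBasic
import Cfsg.Agent.Classical.ExcSix
import Cfsg.Agent.Classical.OrthForms
import Cfsg.Agent.Linear.Symplectic
import Cfsg.Agent.SympSub.Count

set_option autoImplicit false

namespace Cfsg.Agent.Classical.Exc

open Matrix QuadraticMap

universe u

variable {F : Type u} [Field F]

/-- The five-dimensional space inside the six-dimensional one. -/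
def incFive (F : Type u) [Field F] :
    (Unit ⊕ (Fin 2 ⊕ Fin 2) → F) →ₗ[F] (Fin 3 ⊕ Fin 3 → F) where
  toFun v := Sum.elim ![v (.inr (.inl 0)), v (.inl ()), v (.inr (.inl 1))]
    ![v (.inr (.inr 0)), v (.inl ()), v (.inr (.inr 1))]
  map_add' u v := by ext (i | i) <;> fin_cases i <;> simp
  map_smul' c v := by ext (i | i) <;> fin_cases i <;> simp

/-- A retraction of `incFive`. -/
def prjFive (F : Type u) [Field F] :
    (Fin 3 ⊕ Fin 3 → F) →ₗ[F] (Unit ⊕ (Fin 2 ⊕ Fin 2) → F) where
  toFun w := Sum.elim (fun _ => w (.inl 1)) (Sum.elim ![w (.inl 0), w (.inl 2)]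
    ![w (.inr 0), w (.inr 2)])
  map_add' u v := by
    ext (i | i | i)
    · simp
    all_goals fin_cases i <;> simp
  map_smul' c v := by
    ext (i | i | i)
    · simp
    all_goals fin_cases i <;> simp

theorem prj_incFive (v : Unit ⊕ (Fin 2 ⊕ Fin 2) → F) : prjFive F (incFive F v) = v := by
  ext (i | i | i)
  · simp [incFive, prjFive]
  all_goals fin_cases i <;> simp [incFive, prjFive]

theorem inc_prjFive {w : Fin 3 ⊕ Fin 3 → F} (h : w (.inr 1) = w (.inl 1)) :
    incFive F (prjFive F w) = w := by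
  ext (i | i) <;> fin_cases i <;> simp [incFive, prjFive, h]

theorem plusQF_incFive (v : Unit ⊕ (Fin 2 ⊕ Fin 2) → F) :
    plusQF 3 F (incFive F v) = oddQF 2 F v := by
  simp [plusQF_apply, oddQF_apply, Cfsg.quadFormPlus, Cfsg.quadFormOdd, incFive, Fin.sum_univ_three,
    Fin.sum_univ_two]
  ring

/-- The four symplectic coordinates. -/
abbrev sumFour : Fin 2 ⊕ Fin 2 ≃ Fin 4 := finSumFinEquiv

/-- The image of the symplectic matrix. -/
def sympVec (F : Type u) [Field F] : Fin 3 ⊕ Fin 3 → F := Sum.elim ![0, -1, 0] ![0, 1, 0]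

theorem incAlt_sympVec : incAlt F (sympVec F) =
    (Matrix.J (Fin 2) F).submatrix sumFour.symm sumFour.symm := by
  ext i j
  fin_cases i <;> fin_cases j <;>
    simp [incAlt, sympVec, Matrix.J, sumFour, finSumFinEquiv, Fin.addCases]

theorem polar_sympVec (w : Fin 3 ⊕ Fin 3 → F) :
    polar (plusQF 3 F) w (sympVec F) = w (.inl 1) - w (.inr 1) := by
  simp [polar, plusQF_apply, Cfsg.quadFormPlus, sympVec, Fin.sum_univ_three]
  ring

variable [Finite F]

theorem isPerfect_Sp_four (h3 : 3 ≤ Nat.card F) :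
    Group.IsPerfect (Matrix.symplecticGroup (Fin 2) F) := by
  have : Fintype F := Fintype.ofFinite F
  exact ⟨Linear.Symp.commutator_eq_top (Or.inr (Or.inl ⟨rfl, by
    rwa [← Nat.card_eq_fintype_card]⟩))⟩

/-- The symplectic group inside `SL₄`. -/
noncomputable def spToSL (h3 : 3 ≤ Nat.card F) :
    Matrix.symplecticGroup (Fin 2) F →* Matrix.SpecialLinearGroup (Fin 4) F :=
  let f : Matrix.symplecticGroup (Fin 2) F →* GL (Fin 4) F :=
    MonoidHom.toHomUnits
      { toFun := fun A => A.1.submatrix sumFour.symm sumFour.symm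
        map_one' := by simp
        map_mul' := fun A B => by simp [Matrix.submatrix_mul_equiv] }
  { toFun := fun A => ⟨(f A).1, by
      have := isPerfect_Sp_four h3
      have h := congrArg Units.val (hom_trivial ((Matrix.GeneralLinearGroup.det).comp f) A)
      simpa using h⟩
    map_one' := Subtype.ext (by simp)
    map_mul' := fun A B => Subtype.ext ((congrArg Units.val (map_mul f A B)).trans (Units.val_mul _ _)) }

theorem spToSL_apply (h3 : 3 ≤ Nat.card F) (A : Matrix.symplecticGroup (Fin 2) F) :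
    (spToSL h3 A).1 = A.1.submatrix sumFour.symm sumFour.symm := rfl

theorem spToSL_injective (h3 : 3 ≤ Nat.card F) : Function.Injective (spToSL (F := F) h3) := by
  intro A B h
  have h' := congrArg Subtype.val h
  rw [spToSL_apply, spToSL_apply] at h'
  exact Subtype.ext (by
    simpa using congrArg (fun M => M.submatrix sumFour sumFour) h')

theorem slToO6_sympVec (h3 : 3 ≤ Nat.card F) (A : Matrix.symplecticGroup (Fin 2) F) :
    (slToO6 (spToSL h3 A)).1 (sympVec F) = sympVec F := by
  rw [slToO6_apply, incAlt_sympVec, spToSL_apply, Matrix.transpose_submatrix,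
    Matrix.submatrix_mul_equiv, Matrix.submatrix_mul_equiv, SymplecticGroup.mem_iff.1 A.2,
    ← incAlt_sympVec, prj_incAlt]

/-- The six-dimensional action restricted to the symplectic group, as endomorphisms. -/
noncomputable def spEnd (h3 : 3 ≤ Nat.card F) :
    Matrix.symplecticGroup (Fin 2) F →* Module.End F (Fin 3 ⊕ Fin 3 → F) where
  toFun A := (slToO6 (spToSL h3 A)).1.toLinearMap
  map_one' := by rw [map_one, map_one]; rfl
  map_mul' A B := by rw [map_mul, map_mul]; rfl

theorem spEnd_apply (h3 : 3 ≤ Nat.card F) (A : Matrix.symplecticGroup (Fin 2) F)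
    (w : Fin 3 ⊕ Fin 3 → F) : spEnd h3 A w = (slToO6 (spToSL h3 A)).1 w := rfl

theorem spEnd_invariant (h3 : 3 ≤ Nat.card F) (A : Matrix.symplecticGroup (Fin 2) F)
    (v : Unit ⊕ (Fin 2 ⊕ Fin 2) → F) :
    incFive F (prjFive F (spEnd h3 A (incFive F v))) = spEnd h3 A (incFive F v) := by
  refine inc_prjFive ?_
  have h := OQ_polar (slToO6 (spToSL h3 A)) (incFive F v) (sympVec F)
  rw [slToO6_sympVec, polar_sympVec, polar_sympVec] at h
  rw [spEnd_apply]
  simp [incFive] at h ⊢
  linear_combination -h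

/-- `Sp₄` acting on the five-dimensional space. -/
noncomputable def spToO5 (h3 : 3 ≤ Nat.card F) :
    Matrix.symplecticGroup (Fin 2) F →* OQ (oddQF 2 F) :=
  actHom (oddQF 2 F) (incFive F) (prjFive F) prj_incFive (spEnd h3) (spEnd_invariant h3)
    (fun A v => by
      rw [← plusQF_incFive, spEnd_invariant h3 A v, spEnd_apply, ← plusQF_incFive]
      exact (slToO6 (spToSL h3 A)).2 _)

theorem spToO5_ker (h3 : 3 ≤ Nat.card F) (h2 : (2 : F) ≠ 0)
    (A : Matrix.symplecticGroup (Fin 2) F) (hA : A ∈ (spToO5 h3).ker) :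
    spToSL h3 A ∈ (slToO6 (F := F)).ker := by
  rw [spToO5, mem_ker_actHom] at hA
  rw [MonoidHom.mem_ker]
  refine Subtype.ext (LinearEquiv.ext fun w => ?_)
  change (slToO6 (spToSL h3 A)).1 w = w
  set c := (w (.inr 1) - w (.inl 1)) / 2 with hc
  have hw : w = incFive F (prjFive F (w - c • sympVec F)) + c • sympVec F := by
    rw [inc_prjFive, sub_add_cancel]
    simp [sympVec, hc]
    field_simp
    ring
  rw [hw, map_add, map_smul, slToO6_sympVec, ← spEnd_apply, hA]

theorem nonempty_POmega_five [Fintype F] (hodd : Odd (Fintype.card F)) :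
    Nonempty (Cfsg.POmega F (Cfsg.quadFormOdd 2 F) ≃* Cfsg.PSp 2 F) := by
  classical
  have hodd' : Odd (Nat.card F) := by rwa [Nat.card_eq_fintype_card]
  have h2 : (2 : F) ≠ 0 := two_ne_zero_of_odd hodd'
  have h3 : 3 ≤ Nat.card F := by
    have := Finite.one_lt_card (α := F)
    obtain ⟨k, hk⟩ := hodd'
    omega
  have := isPerfect_Sp_four h3
  have : Finite (OQ (oddQF 2 F)) := Finite.of_injective (fun g => (g.1 : _ → _))
    fun x y h => Subtype.ext (LinearEquiv.ext (congrFun h))
  have hcardO : Nat.card (OQ (oddQF 2 F)) = 2 * Nat.card (Matrix.symplecticGroup (Fin 2) F) := by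
    rw [Nat.card_congr (OQCongr (oddEquiv 2) (oddEquiv_spec 2)).toEquiv, card_OQ_odd hodd',
      SympSub.card_symplecticGroup, SympSub.spOrder, Nat.card_eq_fintype_card, mul_assoc]
  have hk : (spToO5 h3).ker ≤ Subgroup.center (Matrix.symplecticGroup (Fin 2) F) := by
    intro A hA
    have h' := ker_slToO6_le_center (spToO5_ker h3 h2 A hA)
    rw [Subgroup.mem_center_iff] at h' ⊢
    intro B
    apply spToSL_injective h3
    rw [map_mul, map_mul]
    exact h' _
  have hkc := card_ker_le_two (spToO5 h3) (spToSL h3) (spToSL_injective h3)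
    (fun A hA => spToO5_ker h3 h2 A hA)
  exact nonempty_POmega_of (Cfsg.quadFormOdd 2 F) (oddQF 2 F) (oddQF_apply 2) (spToO5 h3)
    (commutator_eq_range _ (index_le_of_card _ (by rw [hcardO]; nlinarith)))
    (center_iff_of_perfect _ hk)

end Cfsg.Agent.Classical.Exc
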