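/-
The plus-type orthogonal group in dimension four and a product of two two-dimensional linear groups.
-/
import Mathlib
import Cfsg.Prelude.Def_Classical
import Cfsg.Agent.Classical.ExcBasic
import Cfsg.Agent.Classical.ExcTwo
import Cfsg.Agent.Classical.OrthForms
import Cfsg.Agent.Linear.Orders
import Cfsg.Agent.Linear.Transvection

set_option autoImplicit false

namespace Cfsg.Agent.Classical.Exc

open Matrix
open scoped MatrixGroups commutatorElement

universe u

variable {F : Type u} [Field F]

/-- `(x₀, x₁, y₀, y₁) ↦ [[x₀, x₁], [-y₁, y₀]]`, an isometry from the plus form to the determinant. -/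
def incMat (F : Type u) [Field F] : (Fin 2 ⊕ Fin 2 → F) →ₗ[F] Matrix (Fin 2) (Fin 2) F where
  toFun v := !![v (.inl 0), v (.inl 1); -v (.inr 1), v (.inr 0)]
  map_add' u v := by ext i j; fin_cases i <;> fin_cases j <;> simp [add_comm]
  map_smul' c v := by ext i j; fin_cases i <;> fin_cases j <;> simp

/-- The inverse of `incMat`. -/
def prjMat (F : Type u) [Field F] : Matrix (Fin 2) (Fin 2) F →ₗ[F] (Fin 2 ⊕ Fin 2 → F) where
  toFun X := Sum.elim ![X 0 0, X 0 1] ![X 1 1, -X 1 0]
  map_add' X Y := by ext (i | i) <;> fin_cases i <;> simp [add_comm]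
  map_smul' c X := by ext (i | i) <;> fin_cases i <;> simp

theorem prj_incMat (v : Fin 2 ⊕ Fin 2 → F) : prjMat F (incMat F v) = v := by
  ext (i | i) <;> fin_cases i <;> simp [incMat, prjMat]

theorem inc_prjMat (X : Matrix (Fin 2) (Fin 2) F) : incMat F (prjMat F X) = X := by
  ext i j; fin_cases i <;> fin_cases j <;> simp [incMat, prjMat]

theorem det_incMat (v : Fin 2 ⊕ Fin 2 → F) : (incMat F v).det = plusQF 2 F v := by
  simp [plusQF_apply, Cfsg.quadFormPlus, incMat, Matrix.det_fin_two, Fin.sum_univ_two]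

/-- The product of the two determinants. -/
noncomputable def detProd : GL (Fin 2) F × GL (Fin 2) F →* Fˣ :=
  (Matrix.GeneralLinearGroup.det.comp (MonoidHom.fst _ _)) *
    (Matrix.GeneralLinearGroup.det.comp (MonoidHom.snd _ _))

/-- Pairs with inverse determinants. -/
noncomputable abbrev detPair (F : Type u) [Field F] : Subgroup (GL (Fin 2) F × GL (Fin 2) F) :=
  (detProd (F := F)).ker

theorem detPair_det (p : detPair F) : p.1.1.1.det * p.1.2.1.det = 1 := by
  simpa [detProd] using congrArg Units.val (MonoidHom.mem_ker.1 p.2)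

/-- Left and right multiplication. -/
noncomputable def leftRight : detPair F →* Module.End F (Matrix (Fin 2) (Fin 2) F) :=
  sandwich (((Units.coeHom _).comp (MonoidHom.fst _ _)).comp (detPair F).subtype)
    (((Units.coeHom _).comp (MonoidHom.snd _ _)).comp (detPair F).subtype)

theorem leftRight_apply (p : detPair F) (X : Matrix (Fin 2) (Fin 2) F) :
    leftRight p X = p.1.1.1 * X * p.1.2.1ᵀ := rfl

/-- The action of pairs by left and right multiplication. -/
noncomputable def pairToO4 : detPair F →* OQ (plusQF 2 F) :=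
  actHom (plusQF 2 F) (incMat F) (prjMat F) prj_incMat leftRight
    (fun _ _ => inc_prjMat _)
    (fun p v => by
      rw [← det_incMat, ← det_incMat, inc_prjMat, leftRight_apply, Matrix.det_mul, Matrix.det_mul,
        Matrix.det_transpose, mul_right_comm, detPair_det, one_mul])

theorem pairToO4_apply (p : detPair F) (v : Fin 2 ⊕ Fin 2 → F) :
    (pairToO4 p).1 v = prjMat F (p.1.1.1 * incMat F v * p.1.2.1ᵀ) := rfl

theorem pairToO4_ker (p : detPair F) :
    p ∈ (pairToO4 (F := F)).ker ↔
      ∃ c : F, c ≠ 0 ∧ p.1.1.1 = c • 1 ∧ p.1.2.1 = c⁻¹ • 1 := by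
  rw [pairToO4, mem_ker_actHom]
  constructor
  · intro h
    have h' : ∀ X, p.1.1.1 * X * p.1.2.1ᵀ = X := fun X => by
      have := h (prjMat F X)
      rwa [inc_prjMat, leftRight_apply] at this
    have h1 := h' 1
    rw [mul_one] at h1
    have h1' : p.1.2.1ᵀ * p.1.1.1 = 1 := mul_eq_one_comm.1 h1
    have hc : ∀ X, p.1.1.1 * X = X * p.1.1.1 := fun X => by
      conv_rhs => rw [← h' X, mul_assoc, h1', mul_one]
    have a := congrFun (congrFun (hc !![0, 1; 0, 0]) 0) 0
    have b := congrFun (congrFun (hc !![0, 1; 0, 0]) 0) 1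
    have c := congrFun (congrFun (hc !![0, 0; 1, 0]) 0) 0
    simp [Matrix.mul_apply, Fin.sum_univ_two] at a b c
    have hg : p.1.1.1 = p.1.1.1 0 0 • 1 := by
      ext i j; fin_cases i <;> fin_cases j <;> simp [← a, ← b, c]
    have hc0 : p.1.1.1 0 0 ≠ 0 := fun e => by
      rw [e, zero_smul] at hg
      exact p.1.1.ne_zero hg
    refine ⟨_, hc0, hg, ?_⟩
    rw [hg, Matrix.smul_mul, one_mul] at h1
    have : p.1.2.1ᵀ = (p.1.1.1 0 0)⁻¹ • 1 := by
      rw [← h1, smul_smul, inv_mul_cancel₀ hc0, one_smul]
    rw [← Matrix.transpose_transpose p.1.2.1, this, Matrix.transpose_smul, Matrix.transpose_one]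
  · rintro ⟨c, hc, e1, e2⟩ v
    simp [leftRight_apply, e1, e2, smul_smul, hc]

/-- Pairs of unimodular matrices inside `detPair`. -/
noncomputable def slPair : SL(2, F) × SL(2, F) →* detPair F :=
  ((Matrix.SpecialLinearGroup.toGL.prodMap Matrix.SpecialLinearGroup.toGL)).codRestrict _ fun p =>
    MonoidHom.mem_ker.2 (Units.ext (by
      simp [detProd]))

theorem slPair_range : (slPair (F := F)).range =
    ((Matrix.GeneralLinearGroup.det.comp (MonoidHom.fst _ _)).comp (detPair F).subtype).ker := by
  ext p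
  rw [MonoidHom.mem_ker]
  constructor
  · rintro ⟨s, rfl⟩
    exact Units.ext (by simp [slPair])
  · intro h
    have h1 : p.1.1.1.det = 1 := by simpa using congrArg Units.val h
    have h2 : p.1.2.1.det = 1 := by simpa [h1] using detPair_det p
    exact ⟨(⟨_, h1⟩, ⟨_, h2⟩), Subtype.ext (Prod.ext (Units.ext rfl) (Units.ext rfl))⟩

/-- `diag (c, 1)`. -/
noncomputable def diagUnit : Fˣ →* GL (Fin 2) F :=
  MonoidHom.toHomUnits
    { toFun := fun c => Matrix.diagonal ![(c : F), 1]
      map_one' := by ext i j; fin_cases i <;> fin_cases j <;> simp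
      map_mul' := fun a b => by
        rw [Matrix.diagonal_mul_diagonal]; congr 1; ext i; fin_cases i <;> simp }

/-- `g ↦ (g, diag (1 / det g, 1))`. -/
noncomputable def glPair : GL (Fin 2) F →* detPair F :=
  ((MonoidHom.id _).prod (diagUnit.comp (Matrix.GeneralLinearGroup.det)⁻¹)).codRestrict _ fun g =>
    MonoidHom.mem_ker.2 (Units.ext (by
      simp [detProd, diagUnit, Matrix.det_diagonal]
      exact mul_inv_cancel₀ (Matrix.GeneralLinearGroup.det_ne_zero g)))

theorem glPair_toGL (s : SL(2, F)) :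
    glPair (Matrix.SpecialLinearGroup.toGL s) = slPair (s, 1) := by
  have : Matrix.GeneralLinearGroup.det (Matrix.SpecialLinearGroup.toGL s) = 1 := Units.ext (by simp)
  refine Subtype.ext (Prod.ext rfl ?_)
  simp [glPair, slPair, this]

/-- Transposition as an element of the orthogonal group. -/
noncomputable def transO4 : OQ (plusQF 2 F) :=
  ⟨LinearEquiv.ofLinearMap ((prjMat F).comp
      ((Matrix.transposeLinearEquiv (Fin 2) (Fin 2) F F).toLinearMap.comp (incMat F)))
    ((prjMat F).comp
      ((Matrix.transposeLinearEquiv (Fin 2) (Fin 2) F F).toLinearMap.comp (incMat F)))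
    (LinearMap.ext fun v => by simp [inc_prjMat, prj_incMat])
    (LinearMap.ext fun v => by simp [inc_prjMat, prj_incMat]),
   fun v => by
    rw [← det_incMat, ← det_incMat]
    simp [inc_prjMat, Matrix.det_transpose]⟩

theorem transO4_apply (v : Fin 2 ⊕ Fin 2 → F) :
    (transO4 (F := F)).1 v = prjMat F (incMat F v)ᵀ := rfl

theorem transO4_conj (p : SL(2, F) × SL(2, F)) :
    transO4 * pairToO4 (slPair p) * transO4⁻¹ = pairToO4 (slPair p.swap) := by
  rw [mul_inv_eq_iff_eq_mul]
  refine Subtype.ext (LinearEquiv.ext fun v => ?_)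
  simp [transO4_apply, pairToO4_apply, inc_prjMat, slPair, Matrix.transpose_mul, mul_assoc]

theorem transO4_not_mem : transO4 ∉ (pairToO4 (F := F)).range := by
  rintro ⟨p, hp⟩
  have h : ∀ X, p.1.1.1 * X * p.1.2.1ᵀ = Xᵀ := fun X => by
    have := congrArg (fun x : OQ (plusQF 2 F) => incMat F (x.1 (prjMat F X))) hp
    simpa [transO4_apply, pairToO4_apply, inc_prjMat] using this
  have h1 := h 1
  rw [mul_one, Matrix.transpose_one] at h1
  have h1' : p.1.2.1ᵀ * p.1.1.1 = 1 := mul_eq_one_comm.1 h1
  set M : Matrix (Fin 2) (Fin 2) F := !![0, 1; 0, 0]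
  set N : Matrix (Fin 2) (Fin 2) F := !![0, 0; 1, 0]
  have e : (M * N)ᵀ = Mᵀ * Nᵀ := by
    rw [← h (M * N), ← h M, ← h N]
    simp only [mul_assoc]
    rw [← mul_assoc p.1.2.1ᵀ p.1.1.1, h1', one_mul]
  have := congrFun (congrFun e 0) 0
  simp [M, N, Matrix.mul_apply, Fin.sum_univ_two] at this

/-- Centres of direct products. -/
theorem mem_center_prod {A B : Type*} [Group A] [Group B] (p : A × B) :
    p ∈ Subgroup.center (A × B) ↔ p.1 ∈ Subgroup.center A ∧ p.2 ∈ Subgroup.center B := by
  simp only [Subgroup.mem_center_iff, Prod.forall, Prod.ext_iff, Prod.fst_mul, Prod.snd_mul]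
  exact ⟨fun h => ⟨fun a => (h a 1).1, fun b => (h 1 b).2⟩, fun h a b => ⟨h.1 a, h.2 b⟩⟩

/-- A product of centre quotients. -/
theorem nonempty_prod_center (A B : Type*) [Group A] [Group B] :
    Nonempty ((A × B) ⧸ Subgroup.center (A × B) ≃*
      (A ⧸ Subgroup.center A) × (B ⧸ Subgroup.center B)) := by
  let f : A × B →* (A ⧸ Subgroup.center A) × (B ⧸ Subgroup.center B) :=
    (QuotientGroup.mk' _).prodMap (QuotientGroup.mk' _)
  have hs : Function.Surjective f := by
    rintro ⟨x, y⟩
    obtain ⟨a, rfl⟩ := QuotientGroup.mk'_surjective _ x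
    obtain ⟨b, rfl⟩ := QuotientGroup.mk'_surjective _ y
    exact ⟨(a, b), rfl⟩
  have hk : f.ker = Subgroup.center (A × B) := by
    ext p
    rw [MonoidHom.mem_ker, mem_center_prod, Prod.ext_iff]
    simp [f]
  exact ⟨(QuotientGroup.quotientMulEquivOfEq hk.symm).trans
    (QuotientGroup.quotientKerEquivOfSurjective f hs)⟩

theorem nonempty_POmega_four_plus [Fintype F] (hF : 3 ≤ Fintype.card F) :
    Nonempty (Cfsg.POmega F (Cfsg.quadFormPlus 2 F) ≃*
      Matrix.ProjectiveSpecialLinearGroup (Fin 2) F ×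
        Matrix.ProjectiveSpecialLinearGroup (Fin 2) F) := by
  classical
  have : Finite (OQ (plusQF 2 F)) := Finite.of_injective (fun g => (g.1 : _ → _))
    fun a b h => Subtype.ext (LinearEquiv.ext (congrFun h))
  set q := Fintype.card F
  set S := SL(2, F) × SL(2, F)
  set φ : S →* OQ (plusQF 2 F) := pairToO4.comp slPair with hφ
  have hcardO : Nat.card (OQ (plusQF 2 F)) = 2 * Nat.card S := by
    rw [Nat.card_congr (OQCongr (plusEquiv 2) (plusEquiv_spec 2)).toEquiv, card_OQ_plus 1,
      Nat.card_prod, Linear.card_SL_two, Nat.card_eq_fintype_card]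
    have : q ^ 2 - 1 = (q - 1) * (q + 1) := by
      rw [mul_comm (q - 1), ← Nat.sq_sub_sq, one_pow]
    simp only [Finset.prod_range_one, q] at this ⊢
    norm_num [this]
    ring
  have hkerS : Nat.card φ.ker ≤ 2 := by
    have := finite_sq_eq_one (F := F)
    have key : ∀ x : φ.ker, ∃ c : F, c ^ 2 = 1 ∧ x.1.1.1 = c • 1 ∧ x.1.2.1 = c⁻¹ • 1 := by
      rintro ⟨⟨g, h⟩, hx⟩
      obtain ⟨c, -, e1, e2⟩ := (pairToO4_ker _).1 (MonoidHom.mem_ker.2 (MonoidHom.mem_ker.1 hx))
      exact ⟨c, scalar_sq (g := g) e1, e1, e2⟩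
    choose c hc1 hc2 hc3 using key
    refine le_trans (Nat.card_le_card_of_injective
      (β := {c : F // c ^ 2 = 1}) (fun x => ⟨c x, hc1 x⟩) ?_) card_sq_eq_one_le
    intro a b hab
    have e : c a = c b := congrArg Subtype.val hab
    refine Subtype.ext (Prod.ext (Subtype.ext ?_) (Subtype.ext ?_))
    · rw [hc2, hc2, e]
    · rw [hc3, hc3, e]
  have hindex : φ.range.index ≤ 4 :=
    index_le_of_card φ (by rw [hcardO]; nlinarith)
  have hK : (pairToO4 (F := F)).range.index ≤ 2 := by
    have hk : Nat.card (pairToO4 (F := F)).ker ≤ q - 1 := by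
      rw [← Linear.card_units_eq]
      have key : ∀ x : (pairToO4 (F := F)).ker, ∃ c : Fˣ,
          x.1.1.1.1 = (c : F) • 1 ∧ x.1.1.2.1 = (c : F)⁻¹ • 1 := by
        intro x
        obtain ⟨c, h0, e1, e2⟩ := (pairToO4_ker _).1 x.2
        exact ⟨Units.mk0 c h0, e1, e2⟩
      choose c hc1 hc2 using key
      refine Nat.card_le_card_of_injective c fun a b hab => ?_
      refine Subtype.ext (Subtype.ext (Prod.ext (Units.ext ?_) (Units.ext ?_)))
      · rw [hc1, hc1, hab]
      · rw [hc2, hc2, hab]
    have hs : Function.Surjective (detProd (F := F)) := fun c => ⟨(diagUnit c, 1), Units.ext (by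
      simp [detProd, diagUnit, Matrix.det_diagonal])⟩
    have h0 : (q - 1) * Nat.card (detPair F) = Nat.card (GL (Fin 2) F) * Nat.card (GL (Fin 2) F) := by
      rw [← Nat.card_prod, ← Linear.card_units_eq, ← Subgroup.card_mul_index (detPair F),
        Subgroup.index_ker, MonoidHom.range_eq_top.2 hs, Subgroup.card_top, mul_comm]
    have h1 : Nat.card (pairToO4 (F := F)).ker * Nat.card (pairToO4 (F := F)).range =
        Nat.card (detPair F) := by rw [← Subgroup.index_ker, Subgroup.card_mul_index]
    have h3 := Subgroup.card_mul_index (pairToO4 (F := F)).range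
    rw [hcardO] at h3
    have hpos : 0 < q - 1 := by omega
    rw [Linear.card_GL_eq_mul_card_SL, Linear.card_units_eq] at h0
    have hd : Nat.card (detPair F) = (q - 1) * Nat.card S := by
      apply Nat.eq_of_mul_eq_mul_left hpos
      rw [h0, Nat.card_prod]
      ring
    have hS : Nat.card S ≤ Nat.card (pairToO4 (F := F)).range := by
      refine le_of_mul_le_mul_left ?_ hpos
      rw [← hd, ← h1]
      exact Nat.mul_le_mul_right _ hk
    have hR : 0 < Nat.card (pairToO4 (F := F)).range := Finite.card_pos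
    refine le_of_mul_le_mul_left ?_ hR
    rw [h3]
    nlinarith
  have hrange : φ.range = (slPair (F := F)).range.map pairToO4 := by
    rw [hφ, MonoidHom.range_comp]
  have hnormal : φ.range.Normal := by
    refine normal_of_index_two φ.range pairToO4.range hK ?_ (z := transO4) ?_ transO4_not_mem
    · rw [hrange, MonoidHom.range_eq_map]
      refine (Subgroup.map_mono ?_).trans (Subgroup.le_normalizer_map _)
      rw [slPair_range, Subgroup.normalizer_eq_top]
    · refine Subgroup.mem_normalizer_iff.2 fun x => ⟨?_, ?_⟩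
      · rintro ⟨p, rfl⟩
        exact ⟨p.swap, (transO4_conj p).symm⟩
      · rintro ⟨p, hp⟩
        refine ⟨p.swap, ?_⟩
        have e := transO4_conj p.swap
        rw [Prod.swap_swap] at e
        simp only [hφ, MonoidHom.coe_comp, Function.comp_apply] at hp ⊢
        rw [← e] at hp
        exact mul_left_cancel (mul_right_cancel hp)
  have hcomm : commutator (OQ (plusQF 2 F)) = φ.range := by
    refine le_antisymm (commutator_le_of_index _ hindex) ?_
    rintro _ ⟨⟨g, h⟩, rfl⟩
    have h1 : ∀ s : SL(2, F), φ (s, 1) ∈ commutator (OQ (plusQF 2 F)) := by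
      intro s
      obtain ⟨a, ha0, ha1⟩ : ∃ a : F, a ≠ 0 ∧ a ≠ 1 := by
        by_contra hcon
        push Not at hcon
        have : Function.Surjective (fun i : Fin 2 => (![0, 1] i : F)) := fun c => by
          rcases eq_or_ne c 0 with rfl | hc
          · exact ⟨0, rfl⟩
          · exact ⟨1, (hcon c hc).symm⟩
        have := Fintype.card_le_of_surjective _ this
        simp at this
        omega
      have hmem : Matrix.SpecialLinearGroup.toGL s ∈ commutator (GL (Fin 2) F) := by
        rw [Linear.commutator_GL_eq_ker_det fun _ => Or.inr ⟨a, ha0, ha1⟩,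
          ← Linear.range_toGL_eq_ker_det]
        exact ⟨s, rfl⟩
      have hle : (commutator (GL (Fin 2) F)).map (pairToO4.comp glPair) ≤
          commutator (OQ (plusQF 2 F)) := by
        rw [commutator_def, Subgroup.map_commutator, commutator_def]
        exact Subgroup.commutator_mono le_top le_top
      have := hle (Subgroup.mem_map_of_mem _ hmem)
      simpa [hφ, glPair_toGL] using this
    have hn : (commutator (OQ (plusQF 2 F))).Normal := inferInstance
    have e : ((g, h) : S) = (g, 1) * (1, h) := by simp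
    rw [e, map_mul]
    refine mul_mem (h1 g) ?_
    have := hn.conj_mem _ (h1 h) transO4
    rw [hφ, MonoidHom.comp_apply, transO4_conj] at this
    exact this
  obtain ⟨e⟩ := nonempty_POmega_of (Cfsg.quadFormPlus 2 F) (plusQF 2 F) (plusQF_apply 2) φ hcomm
    fun p => by
      constructor
      · intro h x
        rw [commutatorElement_eq_one_iff_mul_comm.2 (Subgroup.mem_center_iff.1 h x).symm, map_one]
      · intro h
        rw [mem_center_prod]
        constructor
        · refine center_of_commute_scalar _ fun x => ?_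
          obtain ⟨c, -, e1, -⟩ := (pairToO4_ker _).1 (MonoidHom.mem_ker.2 (h (x, 1)))
          exact ⟨c, scalar_sq (g := ⁅p.1, x⁆) e1, e1⟩
        · refine center_of_commute_scalar _ fun x => ?_
          obtain ⟨c, -, -, e1⟩ := (pairToO4_ker _).1 (MonoidHom.mem_ker.2 (h (1, x)))
          exact ⟨c⁻¹, scalar_sq (g := ⁅p.2, x⁆) e1, e1⟩
  obtain ⟨e'⟩ := nonempty_prod_center SL(2, F) SL(2, F)
  exact ⟨e.trans e'⟩

end Cfsg.Agent.Classical.Exc
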