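/-
The minus-type orthogonal group in dimension six and the four-dimensional unitary group.
-/
import Mathlib
import Cfsg.Prelude.Def_Classical
import Cfsg.Agent.Classical.ExcBasic
import Cfsg.Agent.Classical.ExcSix
import Cfsg.Agent.Classical.ExcMinus
import Cfsg.Agent.Classical.OrthForms
import Cfsg.Agent.Classical.UBasic
import Cfsg.Agent.Classical.UGroup
import Cfsg.Agent.Classical.UGen
import Cfsg.Agent.Classical.USimple

set_option autoImplicit false

namespace Cfsg.Agent.Classical.Exc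

open Matrix QuadraticMap

universe u v

section Sesqui

variable {K : Type v} [Field K]

/-- Exchange of the two halves. -/
def swapHalves (w : Fin 3 ⊕ Fin 3 → K) : Fin 3 ⊕ Fin 3 → K := fun i => w i.swap

theorem dot_swapHalves (u w : Fin 3 ⊕ Fin 3 → K) :
    u ⬝ᵥ swapHalves w = polar (plusQF 3 K) u w := by
  simp [dotProduct, swapHalves, polar, plusQF_apply, Cfsg.quadFormPlus, Fintype.sum_sum_type,
    Fin.sum_univ_three]
  ring

set_option maxHeartbeats 8000000 in
theorem dot_transpose_adjoint (A : Matrix (Fin 4) (Fin 4) K) (u w : Fin 3 ⊕ Fin 3 → K) :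
    prjAlt K (A * incAlt K u * Aᵀ) ⬝ᵥ w = u ⬝ᵥ prjAlt K (Aᵀ * incAlt K w * A) := by
  simp [incAlt, prjAlt, dotProduct, Matrix.mul_apply, Fin.sum_univ_four, Fintype.sum_sum_type,
    Fin.sum_univ_three]
  ring

/-- Duality: exchanging the halves turns `A` into its contragredient. -/
theorem swap_slToO6 (g h : Matrix.SpecialLinearGroup (Fin 4) K) (hgh : h.1 = (g⁻¹).1ᵀ)
    (w : Fin 3 ⊕ Fin 3 → K) :
    swapHalves ((slToO6 g).1 w) = (slToO6 h).1 (swapHalves w) := by
  have key : ∀ u, u ⬝ᵥ swapHalves ((slToO6 g).1 w) = u ⬝ᵥ (slToO6 h).1 (swapHalves w) := by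
    intro u
    rw [dot_swapHalves, ← OQ_polar (slToO6 g⁻¹)]
    have e : (slToO6 g⁻¹).1 ((slToO6 g).1 w) = w := by
      rw [← LinearEquiv.mul_apply, ← Subgroup.coe_mul, ← map_mul, inv_mul_cancel, map_one]
      rfl
    rw [e, ← dot_swapHalves, slToO6_apply, slToO6_apply, dot_transpose_adjoint, hgh,
      Matrix.transpose_transpose]
  funext i
  simpa using key (Pi.single i 1)

theorem slToO6_map (σ : K →+* K) (g : Matrix.SpecialLinearGroup (Fin 4) K)
    (h : Matrix.SpecialLinearGroup (Fin 4) K) (hgh : h.1 = g.1.map σ)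
    (w : Fin 3 ⊕ Fin 3 → K) :
    (fun i => σ ((slToO6 g).1 w i)) = (slToO6 h).1 (fun i => σ (w i)) := by
  funext i
  rw [slToO6_apply, slToO6_apply, hgh]
  rcases i with i | i <;> fin_cases i <;>
    simp [incAlt, prjAlt, Matrix.mul_apply, Fin.sum_univ_four]

end Sesqui

variable {F : Type u} [Field F] [Fintype F] {K : Type v} [Field K] [Fintype K] {q : ℕ}

theorem mem_SU_iff_transpose (σ : K →+* K) (hσ : ∀ x, σ x = x ^ q) (hS : U.SqField K q) {n : ℕ}
    (g : Matrix.SpecialLinearGroup (Fin n) K) (hg : g ∈ Cfsg.SU n K q) :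
    g.1ᵀ * g.1.map σ = 1 := by
  ext i j
  have h1 : U.herm q ((g.1).mulVec (Pi.single i 1)) ((g.1).mulVec (Pi.single j 1)) =
      U.herm q (Pi.single i (1 : K)) (Pi.single j 1) := hg _ _
  rw [U.herm_single_one _ hS.q_ne_zero] at h1
  simpa [Matrix.mul_apply, U.herm_def, hσ, Matrix.one_apply, Pi.single_apply, eq_comm] using h1

theorem isPerfect_SU_four (hS : U.SqField K q) : Group.IsPerfect (Cfsg.SU 4 K q) := by
  have h4 : ¬ ((4 : ℕ) = 3 ∧ q = 2) := fun h => by omega
  have hST := U.SUG_eq_TG hS (show 2 ≤ 4 by norm_num) h4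
  have hu := U.hasUni hS (show 3 ≤ 4 by norm_num) h4
  have h : commutator (U.SUG 4 K q) = ⊤ := by
    apply Subgroup.map_injective (U.SUG 4 K q).subtype_injective
    rw [commutator_def, Subgroup.map_commutator, ← MonoidHom.range_eq_map, Subgroup.range_subtype,
      hST, ← U.TG_perfect hS (show 3 ≤ 4 by norm_num) hu]
  refine ⟨?_⟩
  rw [← map_commutator_top_of_equiv (U.suEquiv 4 K q).symm, h]
  exact Subgroup.map_top_of_surjective _ (U.suEquiv 4 K q).symm.surjective

set_option maxHeartbeats 2000000 in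
theorem nonempty_POmega_six_minus (hF : Fintype.card F = q) (hK : Fintype.card K = q ^ 2) (a b : F)
    (hab : ∀ z₁ z₂ : F, z₁ ^ 2 + a * z₁ * z₂ + b * z₂ ^ 2 = 0 → z₁ = 0 ∧ z₂ = 0) :
    Nonempty (Cfsg.POmega F (Cfsg.quadFormMinus 2 F a b) ≃* Cfsg.PSU 4 K q) := by
  classical
  have hA := anisotropic_binQF hab
  have hS := U.sqField_of_fintype hK
  obtain ⟨D⟩ := nonempty_quadExt (K := K) hF hK hA
  letI : Algebra F K := D.ι.toAlgebra
  have hsmul : ∀ (t : F) (x : K), t • x = D.ι t * x := fun t x => rfl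
  have h0 : ∀ t, D.σ (D.ι t) = D.ι t := fun t => (D.fixed _).2 ⟨_, rfl⟩
  obtain ⟨c, hc⟩ := hS.exists_norm (c := -1) (by rw [hS.neg_pow, one_pow])
  have hc' : c * D.σ c = -1 := by rw [D.σ_eq, ← pow_succ']; exact hc
  have hc0 : c ≠ 0 := fun e => by simp [e] at hc'
  obtain ⟨p, hp⟩ := hS.exists_trace (c := (1 : K)) (one_pow _)
  have hp' : p + D.σ p = 1 := by rw [D.σ_eq]; exact hp
  set δ := D.σ D.ω - D.ω with hδ
  have hδ0 : δ ≠ 0 := sub_ne_zero.2 D.ne
  let uu : F → F → K := fun y₀ y₁ => (D.ι y₁ - D.ι y₀ * D.ω) / δ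
  have huu : ∀ (x₀ x₁ y₀ y₁ : F), uu y₀ y₁ * D.σ (D.w x₀ x₁) + D.σ (uu y₀ y₁) * D.w x₀ x₁ =
      D.ι (x₀ * y₀ + x₁ * y₁) := by
    intro x₀ x₁ y₀ y₁
    have hσδ : D.σ δ = -δ := by rw [hδ, map_sub, D.σ_σ]; ring
    simp only [uu, QuadExt.w, map_div₀, map_sub, map_mul, map_add, h0, hσδ]
    field_simp
    rw [hδ]
    ring
  let halves : ((Fin 2 ⊕ Fin 2) ⊕ Fin 2 → F) → Fin 3 → K := fun v =>
    let r := D.w (v (.inl (.inl 0))) (v (.inl (.inl 1)))
    let u := uu (v (.inl (.inr 0))) (v (.inl (.inr 1)))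
    ![(u - p * r) / c, u + (1 - p) * r, D.w (v (.inr 0)) (v (.inr 1))]
  let inc : ((Fin 2 ⊕ Fin 2) ⊕ Fin 2 → F) →ₗ[F] (Fin 3 ⊕ Fin 3 → K) :=
    { toFun := fun v => Sum.elim (halves v) (fun i => D.σ (halves v i))
      map_add' := fun v v' => by
        have e : halves (v + v') = halves v + halves v' := by
          ext i
          fin_cases i <;> simp [halves, uu, QuadExt.w] <;> ring
        ext (i | i) <;> simp [e]
      map_smul' := fun t v => by
        have e : halves (t • v) = fun i => D.ι t * halves v i := by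
          ext i
          fin_cases i <;> simp [halves, uu, QuadExt.w] <;> ring
        ext (i | i) <;> simp [e, h0, hsmul] }
  have hinj : Function.Injective inc := by
    rw [injective_iff_map_eq_zero]
    intro v hv
    have h1 : ∀ i, halves v i = 0 := fun i => congrFun hv (Sum.inl i)
    have e0 := h1 0
    have e1 := h1 1
    have e2 := h1 2
    simp [halves, hc0] at e0 e1 e2
    have er : D.w (v (.inl (.inl 0))) (v (.inl (.inl 1))) = 0 := by linear_combination e1 - e0
    rw [er] at e0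
    have eu : uu (v (.inl (.inr 0))) (v (.inl (.inr 1))) = 0 := by linear_combination e0
    have ew : D.w (-v (.inl (.inr 1))) (v (.inl (.inr 0))) = 0 := by
      simp [uu, hδ0] at eu
      simp [QuadExt.w]
      linear_combination -eu
    have z0 : D.w 0 0 = 0 := by simp [QuadExt.w]
    obtain ⟨r0, r1⟩ := D.w_injective (er.trans z0.symm)
    obtain ⟨u1, u0⟩ := D.w_injective (ew.trans z0.symm)
    obtain ⟨t0, t1⟩ := D.w_injective (e2.trans z0.symm)
    ext ((i | i) | i) <;> fin_cases i
    · exact r0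
    · exact r1
    · exact u0
    · simpa using u1
    · exact t0
    · exact t1
  obtain ⟨prj, hprj⟩ := inc.exists_leftInverse_of_injective (LinearMap.ker_eq_bot.2 hinj)
  have hpi : ∀ v, prj (inc v) = v := fun v => LinearMap.congr_fun hprj v
  have hbij : Function.Bijective halves := by
    rw [Fintype.bijective_iff_injective_and_card]
    refine ⟨fun v v' h => hinj ?_, ?_⟩
    · ext (i | i)
      · exact congrFun h i
      · exact congrArg D.σ (congrFun h i)
    · simp only [Fintype.card_fun, Fintype.card_sum, Fintype.card_fin, hF, hK]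
      ring
  have hinc : ∀ w : Fin 3 ⊕ Fin 3 → K, (∀ i, D.σ (w i) = swapHalves w i) → inc (prj w) = w := by
    intro w hw
    obtain ⟨v, hv⟩ := hbij.2 (fun i => w (.inl i))
    have e : inc v = w := by
      ext (i | i)
      · exact congrFun hv i
      · change D.σ (halves v i) = w (.inr i)
        rw [hv]
        exact hw (.inl i)
    rw [← e, hpi]
  have hincS : ∀ v i, D.σ (inc v i) = swapHalves (inc v) i := by
    rintro v (i | i)
    · rfl
    · exact D.σ_σ _
  have hQ : ∀ v, plusQF 3 K (inc v) = D.ι (minusQF 2 a b v) := by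
    intro v
    have eu := huu (v (.inl (.inl 0))) (v (.inl (.inl 1))) (v (.inl (.inr 0))) (v (.inl (.inr 1)))
    have en := D.norm_w (v (.inr 0)) (v (.inr 1))
    simp only [plusQF_apply, minusQF_apply, Cfsg.quadFormPlus, Cfsg.quadFormMinus,
      Fin.sum_univ_three, Fin.sum_univ_two]
    rw [map_add, ← en, ← eu]
    have hσp : D.σ p = 1 - p := by linear_combination hp'
    have hcc : D.σ c = -1 / c := by rw [eq_div_iff hc0]; linear_combination hc'
    simp [inc, halves, map_add, map_sub, map_mul, map_div₀, hσp, hcc]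
    field_simp
    ring
  let toSL : Cfsg.SU 4 K q →* Matrix.SpecialLinearGroup (Fin 4) K := (Cfsg.SU 4 K q).subtype
  let T : Cfsg.SU 4 K q →* Module.End F (Fin 3 ⊕ Fin 3 → K) :=
    { toFun := fun g => (slToO6 (toSL g)).1.toLinearMap.restrictScalars F
      map_one' := by rw [map_one, map_one]; rfl
      map_mul' := fun g h => by rw [map_mul, map_mul]; rfl }
  have hT : ∀ g w, T g w = (slToO6 (toSL g)).1 w := fun g w => rfl
  have hTS : ∀ g v i, D.σ (T g (inc v) i) = swapHalves (T g (inc v)) i := by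
    intro g v i
    set h : Matrix.SpecialLinearGroup (Fin 4) K :=
      ⟨(((toSL g)⁻¹).1)ᵀ, by rw [Matrix.det_transpose]; exact ((toSL g)⁻¹).2⟩
    have hm : h.1 = (toSL g).1.map D.σ := by
      have e1 := mem_SU_iff_transpose D.σ D.σ_eq hS g.1 g.2
      have e2 : ((toSL g)⁻¹).1 * (toSL g).1 = 1 := by
        rw [← Matrix.SpecialLinearGroup.coe_mul, inv_mul_cancel]; rfl
      have e3 : (toSL g).1ᵀ * h.1 = 1 := by
        change (toSL g).1ᵀ * (((toSL g)⁻¹).1)ᵀ = 1
        rw [← Matrix.transpose_mul, e2, Matrix.transpose_one]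
      have e4 : h.1 * (toSL g).1ᵀ = 1 := mul_eq_one_comm.1 e3
      calc h.1 = h.1 * ((toSL g).1ᵀ * (toSL g).1.map D.σ) := by
            rw [show (toSL g).1ᵀ * (toSL g).1.map D.σ = 1 from e1, mul_one]
        _ = _ := by rw [← mul_assoc, e4, one_mul]
    rw [hT, congrFun (slToO6_map D.σ (toSL g) h hm (inc v)) i,
      swap_slToO6 (toSL g) h rfl, funext (hincS v)]
  let φ : Cfsg.SU 4 K q →* OQ (minusQF 2 a b) :=
    actHom (minusQF 2 a b) inc prj hpi T (fun g v => hinc _ (hTS g v)) (fun g v => by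
      apply D.ι.injective
      rw [← hQ, ← hQ, hinc _ (hTS g v), hT]
      exact (slToO6 (toSL g)).2 _)
  have hker : ∀ g, g ∈ φ.ker → toSL g ∈ (slToO6 (F := K)).ker := by
    intro g hg
    rw [mem_ker_actHom] at hg
    rw [MonoidHom.mem_ker]
    refine Subtype.ext (LinearEquiv.ext fun w => ?_)
    change (slToO6 (toSL g)).1 w = w
    -- every vector is a combination of two fixed ones
    have key : ∃ v₁ v₂, w = inc v₁ + D.ω • inc v₂ := by
      set w' : Fin 3 ⊕ Fin 3 → K := fun i => D.σ (swapHalves w i) with hw'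
      set d : Fin 3 ⊕ Fin 3 → K := fun i => (w i - w' i) / (-δ) with hd
      set a₀ : Fin 3 ⊕ Fin 3 → K := fun i => w i - D.ω * d i with ha₀
      have hsw : ∀ (f : Fin 3 ⊕ Fin 3 → K) i, swapHalves f i = f i.swap := fun f i => rfl
      have hdS : ∀ i, D.σ (d i) = swapHalves d i := by
        intro i
        simp only [hd, hw', hsw, map_div₀, map_sub, map_neg, D.σ_σ, Sum.swap_swap, hδ]
        rw [← neg_div_neg_eq]
        ring_nf
      have haS : ∀ i, D.σ (a₀ i) = swapHalves a₀ i := by
        intro i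
        have := hdS i
        rw [hsw] at this
        simp only [ha₀, hsw, map_sub, map_mul, this]
        have e : w i.swap - D.σ (w i) = -δ * d i.swap := by
          simp only [hd, hw', hsw, Sum.swap_swap]
          rw [mul_div_cancel₀ _ (neg_ne_zero.2 hδ0)]
        linear_combination -e - d i.swap * hδ
      refine ⟨prj a₀, prj d, ?_⟩
      rw [hinc _ haS, hinc _ hdS]
      ext i
      simp [ha₀]
    obtain ⟨v₁, v₂, rfl⟩ := key
    rw [map_add, map_smul, ← hT, ← hT, hg, hg]
  have hk : φ.ker ≤ Subgroup.center (Cfsg.SU 4 K q) := fun g hg => by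
    have h' := ker_slToO6_le_center (hker g hg)
    rw [Subgroup.mem_center_iff] at h' ⊢
    exact fun x => Subtype.ext (h' x.1)
  have hkc := card_ker_le_two φ toSL (Subgroup.subtype_injective _) hker
  have : Finite (OQ (minusQF 2 a b)) := Finite.of_injective (fun g => (g.1 : _ → _))
    fun x y h => Subtype.ext (LinearEquiv.ext (congrFun h))
  have hcardO : Nat.card (OQ (minusQF 2 a b)) = 2 * Nat.card (Cfsg.SU 4 K q) := by
    have h1 := U.card_SUG hS (show 1 ≤ 4 by norm_num)
    rw [U.card_UG hS, ← Nat.card_congr (U.suEquiv 4 K q).toEquiv] at h1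
    apply Nat.eq_of_mul_eq_mul_left (Nat.succ_pos q)
    rw [mul_left_comm _ 2, Nat.succ_eq_add_one, h1,
      Nat.card_congr (OQCongr (minusEquiv 2) (minusEquiv_spec 2 a b)).toEquiv, card_OQ_minus hA 2,
      Nat.card_eq_fintype_card, hF]
    norm_num [Finset.prod_range_succ, show Even 2 from even_two, show ¬ Even 1 from Nat.not_even_one,
      show ¬ Even 3 by decide]
    ring
  have := isPerfect_SU_four hS
  exact nonempty_POmega_of (Cfsg.quadFormMinus 2 F a b) (minusQF 2 a b) (minusQF_apply 2 a b) φ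
    (commutator_eq_range φ (index_le_of_card φ (by rw [hcardO]; nlinarith)))
    (center_iff_of_perfect φ hk)

end Cfsg.Agent.Classical.Exc
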