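/-
The isometry groups of a hyperbolic plane and of an anisotropic plane over a finite field are
dihedral.
-/
import Mathlib
import Cfsg.Prelude.Def_Classical
import Cfsg.Agent.Classical.OrthBasic
import Cfsg.Agent.Classical.OrthCount
import Cfsg.Agent.Classical.OrthForms
import Cfsg.Agent.Classical.OrthEichler
import Cfsg.Agent.Classical.OrthIndex
import Cfsg.Agent.Classical.OrthOrder
import Cfsg.Agent.TwoGroups.Recognition

set_option autoImplicit false

namespace Cfsg.Agent.Classical

open QuadraticMap

universe u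

variable {F : Type u} [Field F] [Finite F]

omit [Finite F] in
/-- The torus of `hypAdd Q`, as a homomorphism. -/
def torusHom {V : Type*} [AddCommGroup V] [Module F V] (Q : QuadraticForm F V) :
    Fˣ →* OQ (hypAdd Q) where
  toFun := torusQ Q
  map_one' := by ext x <;> simp
  map_mul' a b := by ext x <;> simp <;> ring

theorem hypPlane_dihedral :
    Nonempty (OQ (hypAdd (0 : QuadraticForm F (Fin 0 → F))) ≃* DihedralGroup (Nat.card F - 1)) := by
  set Q₀ := (0 : QuadraticForm F (Fin 0 → F))
  have hq : 1 < Nat.card F := Finite.one_lt_card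
  have : NeZero (Nat.card F - 1) := ⟨by omega⟩
  obtain ⟨l, hl⟩ := IsCyclic.exists_generator (α := Fˣ)
  have hinj : Function.Injective (torusHom Q₀) := by
    intro a b h
    have := congrArg (fun g : OQ (hypAdd Q₀) => (g.1 (hE F _)).1.1) h
    exact Units.ext (by simpa [torusHom] using this)
  have hord : orderOf (torusHom Q₀ l) = Nat.card F - 1 := by
    rw [orderOf_injective _ hinj, orderOf_eq_card_of_forall_mem_zpowers hl, Nat.card_units]
  have hx : ∀ c : Fˣ, hypAdd Q₀ (hX (Fin 0 → F) (c : F)) ≠ 0 := fun c => by simp [Q₀]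
  have hx1 : hypAdd Q₀ (hX (Fin 0 → F) (1 : F)) ≠ 0 := by simp [Q₀]
  refine TwoGroups.equiv_dihedral_of_generators (a := torusHom Q₀ l)
    (b := reflQ (hypAdd Q₀) _ hx1) hord ?_ ?_ (reflQ_mul_self _ _ _) ?_
  · rw [card_OQ_hypAdd qNondeg_zero_fin0, card_OQ_fin0]
    have h := card_zeros_hypExt_plus (F := F) 0
    have e := card_zeros_congr (Q := hypExt (0 + 1) Q₀) (R := hypAdd (hypExt 0 Q₀)) (hypSplit 0)
      (hypSplit_spec 0 Q₀)
    have e2 : Nat.card {x : (F × F) × HypSpace F 0 (Fin 0 → F) // hypAdd (hypExt 0 Q₀) x = 0} =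
        Nat.card {x : (F × F) × (Fin 0 → F) // hypAdd Q₀ x = 0} :=
      card_zeros_congr (hypAddEquiv hypSpaceZero)
        (hypAddEquiv_spec _ fun x => by simp [hypSpaceZero, hypExt_apply])
    rw [e, e2] at h
    have h1 : Nat.card (Fin 0 → F) = 1 := Nat.card_unique
    rw [h1]
    simp [Q₀] at h ⊢
    omega
  · rintro ⟨k, hk⟩
    simp only at hk
    rw [← map_zpow] at hk
    have := congrArg (fun g : OQ (hypAdd Q₀) => (g.1 (hE F _)).1.2) hk
    simp [torusHom, reflQ_apply, Q₀, polar] at this
  · rw [reflQ_inv, ← map_inv]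
    change _ = torusQ Q₀ l⁻¹
    have e : torusHom Q₀ l = reflQ _ _ hx1 * reflQ _ _ (hx l) :=
      (reflQ_mul_eq_torusQ Q₀ l hx1 (hx l)).symm
    have e' : torusQ Q₀ l⁻¹ = (torusHom Q₀ l)⁻¹ := map_inv (torusHom Q₀) l
    rw [e', e, mul_inv_rev, reflQ_inv, reflQ_inv, ← mul_assoc, reflQ_mul_self, one_mul]

theorem binPlane_dihedral {a b : F} (hA : (binQF a b).Anisotropic) :
    Nonempty (OQ (binQF a b) ≃* DihedralGroup (Nat.card F + 1)) := by
  have hfact : Fact (∀ r, r ^ 2 ≠ -b + a * r) := ⟨fun r hr => by
    have := hA ![-r, 1] (by simp; linear_combination hr)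
    simpa using congrFun this 1⟩
  let G : Subgroup (OQ (binQF a b)) :=
    { carrier := {g | ∀ z, g.1 z = binMul a b (g.1 ![1, 0]) z}
      mul_mem' := fun {g h} hg hh z => by
        have e : ∀ x y, binMul a b (binMul a b x y) z = binMul a b x (binMul a b y z) := fun x y => by
          ext i; fin_cases i <;> simp [binMul] <;> ring
        rw [Subgroup.coe_mul, LinearEquiv.mul_apply, LinearEquiv.mul_apply, hh z,
          hg (h.1 ![1, 0]), hg, e]
      one_mem' := fun z => by ext i; fin_cases i <;> simp [binMul]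
      inv_mem' := fun {g} hg z => by
        apply g.1.injective
        have e : ∀ x y, binMul a b x (binMul a b y z) = binMul a b (binMul a b x y) z := fun x y => by
          ext i; fin_cases i <;> simp [binMul] <;> ring
        rw [hg (binMul a b _ z), e, ← hg]
        simp
        ext i; fin_cases i <;> simp [binMul] }
  let toK : G →* QuadraticAlgebra F (-b) a :=
    { toFun := fun g => ⟨g.1.1 ![1, 0] 0, g.1.1 ![1, 0] 1⟩
      map_one' := by ext <;> rfl
      map_mul' := fun g h => by
        have e : (g * h).1.1 ![1, 0] = binMul a b (g.1.1 ![1, 0]) (h.1.1 ![1, 0]) := g.2 _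
        ext
        · rw [QuadraticAlgebra.re_mul]
          exact (congrFun e 0).trans (by simp [binMul]; ring)
        · rw [QuadraticAlgebra.im_mul]
          exact (congrFun e 1).trans (by simp [binMul]) }
  have htoK : Function.Injective toK := by
    intro g h e
    have h0 : g.1.1 ![1, 0] = h.1.1 ![1, 0] := funext fun i => by
      fin_cases i
      · exact congrArg QuadraticAlgebra.re e
      · exact congrArg QuadraticAlgebra.im e
    exact Subtype.ext (Subtype.ext (LinearEquiv.ext fun z => by rw [g.2, h.2, h0]))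
  have hfin : Finite (OQ (binQF a b)) := by
    refine Nat.finite_of_card_ne_zero ?_
    rw [card_OQ_binQF hA]; omega
  have hcyc : IsCyclic G := isCyclic_of_injective_ringHom toK htoK
  have hcardG : Nat.card G = Nat.card F + 1 := by
    rw [← card_binQF_one hA]
    refine Nat.card_congr (Equiv.ofBijective (fun g : G =>
      (⟨g.1.1 ![1, 0], by rw [OQ_map_app]; simp⟩ : {z // binQF a b z = 1})) ⟨fun g h e => ?_, fun y => ?_⟩)
    · exact Subtype.ext (Subtype.ext (LinearEquiv.ext fun z => by
        rw [g.2, h.2, show g.1.1 ![1, 0] = h.1.1 ![1, 0] from congrArg Subtype.val e]))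
    · refine ⟨⟨binRot hA y.1 y.2, fun z => ?_⟩, Subtype.ext ?_⟩
      · change binMul a b y.1 z = binMul a b (binMul a b y.1 ![1, 0]) z
        rw [binMul_one]
      · exact binMul_one a b y.1
  obtain ⟨g, hg⟩ := IsCyclic.exists_generator (α := G)
  have hne : binQF a b ![1, 0] ≠ 0 := by simp
  refine TwoGroups.equiv_dihedral_of_generators (a := g.1) (b := reflQ (binQF a b) ![1, 0] hne)
    ?_ (card_OQ_binQF hA) ?_ (reflQ_mul_self _ _ _) ?_
  · rw [Subgroup.orderOf_coe, orderOf_eq_card_of_forall_mem_zpowers hg, hcardG]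
  · rintro ⟨k, hk⟩
    have hm : reflQ (binQF a b) ![1, 0] hne ∈ G := by
      rw [← hk]; exact zpow_mem g.2 k
    have h := hm ![0, 1]
    have e0 := congrFun h 0
    have e1 := congrFun h 1
    simp [reflQ_apply, polar_binQF, binMul] at e0 e1
    refine binDisc_ne_zero hA ?_
    linear_combination a * e0 + (-2 * b) * e1
  · rw [reflQ_inv]
    refine eq_inv_of_mul_eq_one_left (Subtype.ext (LinearEquiv.ext fun z => ?_))
    have hn : binQF a b (g.1.1 ![1, 0]) = 1 := by rw [OQ_map_app]; simp
    simp only [binQF_apply] at hn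
    simp only [Subgroup.coe_mul, LinearEquiv.mul_apply, Subgroup.coe_one, LinearEquiv.coe_one, id_eq,
      reflQ_apply]
    rw [g.2 z, g.2 (binMul a b (g.1.1 ![1, 0]) z - _)]
    ext i
    fin_cases i <;> simp [binMul, polar_binQF]
    · linear_combination z 0 * hn
    · linear_combination z 1 * hn

end Cfsg.Agent.Classical
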